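import Mathlib
import Cfsg.Agent.Lib.SmallSimple.PSLSeven

/-!
A coded model of the simple group of order 168: permutations of the projective line over `ZMod 7` are
encoded in base 8, and every group element gets a numerical code; properties of the group are checked
on the list of the 168 codes.
-/

set_option autoImplicit false

namespace Cfsg.Agent.Lib.SmallSimple.C168

open OnePoint

/-- The digit `j` in base 8. -/
def dig (c j : ℕ) : ℕ := c / 8 ^ j % 8

/-- The number with the given eight digits. -/
def enc (d : ℕ → ℕ) : ℕ :=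
  d 0 + 8 * d 1 + 64 * d 2 + 512 * d 3 + 4096 * d 4 + 32768 * d 5 + 262144 * d 6 + 2097152 * d 7

theorem dig_enc {d : ℕ → ℕ} (hd : ∀ i, i < 8 → d i < 8) {j : ℕ} (hj : j < 8) : dig (enc d) j = d j := by
  have h0 := hd 0 (by norm_num)
  have h1 := hd 1 (by norm_num)
  have h2 := hd 2 (by norm_num)
  have h3 := hd 3 (by norm_num)
  have h4 := hd 4 (by norm_num)
  have h5 := hd 5 (by norm_num)
  have h6 := hd 6 (by norm_num)
  have h7 := hd 7 (by norm_num)
  unfold dig enc
  interval_cases j <;> norm_num <;> omega

theorem enc_congr {d d' : ℕ → ℕ} (h : ∀ i, i < 8 → d i = d' i) : enc d = enc d' := by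
  unfold enc
  rw [h 0 (by norm_num), h 1 (by norm_num), h 2 (by norm_num), h 3 (by norm_num), h 4 (by norm_num),
    h 5 (by norm_num), h 6 (by norm_num), h 7 (by norm_num)]

theorem dig_lt (c j : ℕ) : dig c j < 8 := Nat.mod_lt _ (by norm_num)

/-- Composition of codes. -/
def cmul (a b : ℕ) : ℕ := enc (fun j => dig a (dig b j))

/-- The identity. -/
def idc : ℕ := 16434824

/-- The codes of the elements. -/
def L : List ℕ :=
  [16434824, 6175624, 13228488, 16096528, 10282832, 11744208, 5761112, 10910872, 2838360, 15673952,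
  4021472, 6743520, 13727336, 3913000, 8761256, 9425584, 5414640, 6880048, 12101880, 13505912,
  7685048, 11789505, 7810817, 9272641, 8309777, 14899409, 945105, 16392537, 12388761, 13911513,
  8096417, 13299937, 5005217, 15744169, 6152489, 9111529, 11157041, 1439921, 4441969, 10081337,
  12663609, 1222585, 13553218, 3832514, 6805890, 14124810, 9977674, 11661706, 10440794, 14969626,
  3313114, 14522914, 14857122, 1628130, 7401002, 8625386, 1012522, 16040178, 8258418, 11278834,
  3618874, 10643066, 380282, 16339715, 10392963, 13675459, 9169419, 1269387, 4390155, 14053907,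
  1808723, 10538899, 12346019, 15240547, 5706211, 15156267, 1977451, 2189803, 9768563, 10985779,
  3175795, 5786235, 13011131, 2773435, 12164740, 13349700, 5568388, 12527116, 14804300, 1392076,
  11504724, 3436244, 6779220, 12934684, 1766492, 2337692, 14451948, 15536556, 7873516, 15226484,
  4108468, 4557812, 5169724, 6347964, 727804, 15526021, 6243013, 6954437, 7960589, 12725965, 1033613,
  14432341, 15075221, 3785173, 13865117, 5803805, 8942493, 4701221, 650853, 2324133, 15835701,
  1906485, 8435189, 7537789, 8741117, 2895165, 16135238, 4041030, 10831814, 15796942, 8148238,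
  9347534, 3397142, 8518230, 442134, 15374366, 1886878, 4346846, 11334694, 1549030, 6365030, 7061614,
  3018414, 4487406, 9705150, 11109182, 5288318, 5364807, 8862343, 2811655, 7757967, 11029711, 5179727,
  10126039, 13422871, 7347095, 9743391, 10687775, 1139551, 12136551, 12855143, 3507623, 5903919,
  12698287, 571823, 2968119, 6465655, 414967]

theorem L_nodup : L.Nodup := by decide +kernel

theorem L_length : L.length = 168 := by decide +kernel

/-- Numbering of the points of the line. -/
def idx (u : OnePoint (ZMod 7)) : ℕ := u.elim 7 ZMod.val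

/-- Points from their numbers. -/
def pt (j : ℕ) : OnePoint (ZMod 7) := if j < 7 then (((j : ℕ) : ZMod 7) : OnePoint (ZMod 7)) else ∞

theorem idx_lt (u : OnePoint (ZMod 7)) : idx u < 8 := by
  cases u with
  | infty => show 7 < 8; norm_num
  | coe i =>
    show ZMod.val i < 8
    have := ZMod.val_lt i
    omega

theorem pt_idx (u : OnePoint (ZMod 7)) : pt (idx u) = u := by
  cases u with
  | infty => rfl
  | coe i =>
    have h1 : idx (i : OnePoint (ZMod 7)) = ZMod.val i := rfl
    rw [h1, pt, if_pos (ZMod.val_lt i), ZMod.natCast_zmod_val]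

/-- The code of a permutation of the line. -/
def code (σ : Equiv.Perm (OnePoint (ZMod 7))) : ℕ := enc (fun j => idx (σ (pt j)))

theorem dig_code (σ : Equiv.Perm (OnePoint (ZMod 7))) {j : ℕ} (hj : j < 8) :
    dig (code σ) j = idx (σ (pt j)) :=
  dig_enc (fun _ _ => idx_lt _) hj

theorem code_mul (σ τ : Equiv.Perm (OnePoint (ZMod 7))) : code (σ * τ) = cmul (code σ) (code τ) := by
  unfold cmul
  apply enc_congr
  intro i hi
  rw [dig_code τ hi, dig_code σ (idx_lt _), pt_idx, Equiv.Perm.mul_apply]

theorem code_inj : Function.Injective code := by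
  intro σ τ h
  ext u
  have h1 := dig_code σ (idx_lt u)
  have h2 := dig_code τ (idx_lt u)
  rw [h, h2, pt_idx] at h1
  have h3 := congrArg pt h1
  rw [pt_idx, pt_idx] at h3
  rw [h3]

/-- The value of a Möbius map at a finite point, with inverses replaced by fifth powers. -/
def mobV (a b c d k : ZMod 7) : ℕ := if c * k + d = 0 then 7 else ZMod.val ((a * k + b) * (c * k + d) ^ 5)

/-- The value of a Möbius map at infinity. -/
def mobI (a c : ZMod 7) : ℕ := if c = 0 then 7 else ZMod.val (a * c ^ 5)

/-- The code of a Möbius map. -/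
def codeF (a b c d : ZMod 7) : ℕ :=
  enc (fun j => if j < 7 then mobV a b c d ((j : ℕ) : ZMod 7) else mobI a c)

theorem codeF_mem : ∀ a b c d : ZMod 7, a * d - b * c = 1 → codeF a b c d ∈ L := by decide +kernel

section
variable [Fact (Nat.Prime 7)]

theorem inv_eq_pow (y : ZMod 7) (hy : y ≠ 0) : y⁻¹ = y ^ 5 := by
  have h := ZMod.pow_card_sub_one_eq_one hy
  have h2 : y ^ 5 * y = 1 := by
    rw [← pow_succ]
    exact h
  exact (eq_inv_of_mul_eq_one_left h2).symm

theorem code_mobius (s : Matrix.SpecialLinearGroup (Fin 2) (ZMod 7)) :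
    code (mobius s) ∈ L := by
  have hdet := Lib.KS2.SL2.det_rel s
  have h1 : code (mobius s) = codeF ((s : Matrix (Fin 2) (Fin 2) (ZMod 7)) 0 0) ((s : Matrix (Fin 2) (Fin 2) (ZMod 7)) 0 1)
      ((s : Matrix (Fin 2) (Fin 2) (ZMod 7)) 1 0) ((s : Matrix (Fin 2) (Fin 2) (ZMod 7)) 1 1) := by
    unfold code codeF
    apply enc_congr
    intro i hi
    by_cases hi7 : i < 7
    · rw [pt, if_pos hi7, if_pos hi7, mobius_coe, mobV]
      by_cases h0 : (s : Matrix (Fin 2) (Fin 2) (ZMod 7)) 1 0 * ((i : ℕ) : ZMod 7) + (s : Matrix (Fin 2) (Fin 2) (ZMod 7)) 1 1 = 0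
      · rw [if_pos h0, if_pos h0]
        rfl
      · rw [if_neg h0, if_neg h0, div_eq_mul_inv, inv_eq_pow _ h0]
        rfl
    · rw [pt, if_neg hi7, if_neg hi7, mobius_infty, mobI]
      by_cases h0 : (s : Matrix (Fin 2) (Fin 2) (ZMod 7)) 1 0 = 0
      · rw [if_pos h0, if_pos h0]
        rfl
      · rw [if_neg h0, if_neg h0, div_eq_mul_inv, inv_eq_pow _ h0]
        rfl
  rw [h1]
  exact codeF_mem _ _ _ _ hdet

end

end Cfsg.Agent.Lib.SmallSimple.C168
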