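import Mathlib
import Cfsg.Agent.Lib.SmallSimple.Code168
import Cfsg.Agent.Lib.PSmall.Basic

/-!
Codes for the elements of a simple group of order 168.
-/

set_option autoImplicit false

namespace Cfsg.Agent.Lib.SmallSimple.C168

/-- A numerical code for the elements of `G`, compatible with the multiplication. -/
structure Code (G : Type*) [Group G] where
  cd : G → ℕ
  mul : ∀ g h, cd (g * h) = cmul (cd g) (cd h)
  inj : Function.Injective cd
  mem : ∀ g, cd g ∈ L
  surj : ∀ c ∈ L, ∃ g, cd g = c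

theorem card_mem_list {l : List ℕ} (hl : l.Nodup) : Nat.card {c // c ∈ l} = l.length := by
  rw [← Nat.card_congr (List.Nodup.getEquiv l hl), Nat.card_fin]

theorem exists_code {G : Type*} [Group G] [Finite G] [IsSimpleGroup G] (h : Nat.card G = 168) :
    Nonempty (Code G) := by
  classical
  obtain ⟨e⟩ := psl_of_card_168 h
  haveI : Fact (Nat.Prime 7) := ⟨by norm_num⟩
  let φ : G →* Equiv.Perm (OnePoint (ZMod 7)) :=
    (mobius (F := ZMod 7)).range.subtype.comp ((pslEquivRange (F := ZMod 7)).toMonoidHom.comp e.toMonoidHom)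
  have hφ : Function.Injective φ := by
    intro a b hab
    apply e.injective
    apply (pslEquivRange (F := ZMod 7)).injective
    exact Subtype.ext hab
  have hmem : ∀ g, code (φ g) ∈ L := by
    intro g
    have h1 : φ g ∈ (mobius (F := ZMod 7)).range := (pslEquivRange (F := ZMod 7) (e g)).2
    obtain ⟨s, hs⟩ := h1
    rw [← hs]
    exact code_mobius s
  have hinj : Function.Injective (fun g => code (φ g)) := fun a b hab => hφ (code_inj hab)
  refine ⟨⟨fun g => code (φ g), fun a b => ?_, hinj, hmem, ?_⟩⟩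
  · show code (φ (a * b)) = _
    rw [map_mul, code_mul]
  · let f : G → {c // c ∈ L} := fun g => ⟨code (φ g), hmem g⟩
    have hf : Function.Bijective f := by
      rw [Nat.bijective_iff_injective_and_card]
      refine ⟨fun a b hab => hinj (congrArg Subtype.val hab), ?_⟩
      rw [h, card_mem_list L_nodup, L_length]
    intro c hc
    obtain ⟨g, hg⟩ := hf.2 ⟨c, hc⟩
    exact ⟨g, congrArg Subtype.val hg⟩

theorem idem_chk : ∀ c ∈ L, cmul c c = c → c = idc := by decide +kernel

/-- Powers. -/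
def p2 (c : ℕ) : ℕ := cmul c c
/-- Powers. -/
def p3 (c : ℕ) : ℕ := cmul c (cmul c c)
/-- Powers. -/
def p4 (c : ℕ) : ℕ := cmul (cmul c c) (cmul c c)
/-- Powers. -/
def p7 (c : ℕ) : ℕ := cmul (p3 c) (p4 c)

theorem orders_chk : ∀ c ∈ L, c = idc ∨ p2 c = idc ∨ p3 c = idc ∨ p4 c = idc ∨ p7 c = idc := by decide +kernel

namespace Code

variable {G : Type*} [Group G] (C : Code G)

theorem cd_one : C.cd 1 = idc := by
  apply idem_chk _ (C.mem 1)
  rw [← C.mul, mul_one]

theorem eq_one_iff {g : G} : g = 1 ↔ C.cd g = idc := by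
  constructor
  · rintro rfl
    exact C.cd_one
  · intro h
    apply C.inj
    rw [h, C.cd_one]

theorem cd_pow2 (g : G) : C.cd (g ^ 2) = p2 (C.cd g) := by
  rw [pow_two, C.mul]
  rfl

theorem cd_pow3 (g : G) : C.cd (g ^ 3) = p3 (C.cd g) := by
  rw [show g ^ 3 = g * (g * g) by simp only [pow_succ, pow_zero, one_mul, mul_assoc], C.mul, C.mul]
  rfl

theorem cd_pow4 (g : G) : C.cd (g ^ 4) = p4 (C.cd g) := by
  rw [show g ^ 4 = (g * g) * (g * g) by simp only [pow_succ, pow_zero, one_mul, mul_assoc], C.mul, C.mul]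
  rfl

theorem cd_pow7 (g : G) : C.cd (g ^ 7) = p7 (C.cd g) := by
  rw [show g ^ 7 = g ^ 3 * g ^ 4 by group, C.mul, cd_pow3, cd_pow4]
  rfl

theorem pow2_iff {g : G} : g ^ 2 = 1 ↔ p2 (C.cd g) = idc := by
  rw [C.eq_one_iff, C.cd_pow2]

theorem pow3_iff {g : G} : g ^ 3 = 1 ↔ p3 (C.cd g) = idc := by
  rw [C.eq_one_iff, C.cd_pow3]

theorem pow4_iff {g : G} : g ^ 4 = 1 ↔ p4 (C.cd g) = idc := by
  rw [C.eq_one_iff, C.cd_pow4]

theorem pow7_iff {g : G} : g ^ 7 = 1 ↔ p7 (C.cd g) = idc := by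
  rw [C.eq_one_iff, C.cd_pow7]

theorem orderOf_two_iff {g : G} : orderOf g = 2 ↔ (C.cd g ≠ idc ∧ p2 (C.cd g) = idc) := by
  haveI : Fact (Nat.Prime 2) := ⟨Nat.prime_two⟩
  rw [orderOf_eq_prime_iff, C.pow2_iff, Ne, C.eq_one_iff]
  tauto

theorem orderOf_three_iff {g : G} : orderOf g = 3 ↔ (C.cd g ≠ idc ∧ p3 (C.cd g) = idc) := by
  haveI : Fact (Nat.Prime 3) := ⟨by norm_num⟩
  rw [orderOf_eq_prime_iff, C.pow3_iff, Ne, C.eq_one_iff]
  tauto

theorem orderOf_seven_iff {g : G} : orderOf g = 7 ↔ (C.cd g ≠ idc ∧ p7 (C.cd g) = idc) := by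
  haveI : Fact (Nat.Prime 7) := ⟨by norm_num⟩
  rw [orderOf_eq_prime_iff, C.pow7_iff, Ne, C.eq_one_iff]
  tauto

theorem orderOf_four_iff {g : G} : orderOf g = 4 ↔ (p2 (C.cd g) ≠ idc ∧ p4 (C.cd g) = idc) := by
  rw [Ne, ← C.pow2_iff, ← C.pow4_iff]
  constructor
  · intro h
    refine ⟨?_, ?_⟩
    · intro h2
      have := orderOf_dvd_of_pow_eq_one h2
      rw [h] at this
      revert this
      decide
    · rw [← h]
      exact pow_orderOf_eq_one g
  · rintro ⟨h1, h2⟩
    haveI : Fact (Nat.Prime 2) := ⟨Nat.prime_two⟩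
    have := orderOf_eq_prime_pow (p := 2) (n := 1) (x := g) (by simpa using h1) (by simpa using h2)
    simpa using this

/-- The orders of elements. -/
theorem orderOf_cases (C : Code G) (g : G) : orderOf g = 1 ∨ orderOf g = 2 ∨ orderOf g = 3 ∨ orderOf g = 4 ∨ orderOf g = 7 := by
  haveI h2 : Fact (Nat.Prime 2) := ⟨Nat.prime_two⟩
  haveI h3 : Fact (Nat.Prime 3) := ⟨by norm_num⟩
  haveI h7 : Fact (Nat.Prime 7) := ⟨by norm_num⟩
  by_cases hg1 : g = 1
  · left
    rw [hg1, orderOf_one]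
  rcases orders_chk _ (C.mem g) with h | h | h | h | h
  · exact absurd (C.eq_one_iff.mpr h) hg1
  · right; left
    exact orderOf_eq_prime (C.pow2_iff.mpr h) hg1
  · right; right; left
    exact orderOf_eq_prime (C.pow3_iff.mpr h) hg1
  · by_cases h4 : g ^ 2 = 1
    · right; left
      exact orderOf_eq_prime h4 hg1
    · right; right; right; left
      have := orderOf_eq_prime_pow (p := 2) (n := 1) (x := g) (by simpa using h4) (by simpa using C.pow4_iff.mpr h)
      simpa using this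
  · right; right; right; right
    exact orderOf_eq_prime (C.pow7_iff.mpr h) hg1

/-- Conjugates of a code. -/
def conj (g : G) : Code G where
  cd x := C.cd (g⁻¹ * x * g)
  mul a b := by
    rw [← C.mul]
    congr 1
    group
  inj a b hab := by
    have := C.inj hab
    simpa using this
  mem x := C.mem _
  surj c hc := by
    obtain ⟨x, hx⟩ := C.surj c hc
    refine ⟨g * x * g⁻¹, ?_⟩
    rw [← hx]
    congr 1
    group

theorem conj_cd (g x : G) : (C.conj g).cd x = C.cd (g⁻¹ * x * g) := rfl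

/-- Counting elements by their codes. -/
theorem card_subtype (P : ℕ → Prop) [DecidablePred P] :
    Nat.card {g : G // P (C.cd g)} = (L.filter (fun c => decide (P c))).length := by
  have hnd : (L.filter (fun c => decide (P c))).Nodup := L_nodup.filter _
  rw [← card_mem_list hnd]
  apply Nat.card_congr
  refine Equiv.ofBijective (fun g => ⟨C.cd g.1, ?_⟩) ⟨?_, ?_⟩
  · rw [List.mem_filter]
    exact ⟨C.mem _, by simpa using g.2⟩
  · intro a b hab
    exact Subtype.ext (C.inj (congrArg Subtype.val hab))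
  · rintro ⟨c, hc⟩
    rw [List.mem_filter] at hc
    obtain ⟨g, rfl⟩ := C.surj c hc.1
    exact ⟨⟨g, by simpa using hc.2⟩, rfl⟩

/-- Counting elements with a property expressed by codes. -/
theorem card_subtype' (Q : G → Prop) (P : ℕ → Prop) [DecidablePred P] (h : ∀ g, Q g ↔ P (C.cd g)) :
    Nat.card {g : G // Q g} = (L.filter (fun c => decide (P c))).length := by
  rw [← C.card_subtype P]
  exact Nat.card_congr (Equiv.subtypeEquivRight h)

section Finite

variable [Finite G]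

/-- The subgroup attached to a list of codes closed under multiplication. -/
def sub (l : List ℕ) (h1 : idc ∈ l) (h2 : ∀ a ∈ l, ∀ b ∈ l, cmul a b ∈ l) : Subgroup G where
  carrier := {g | C.cd g ∈ l}
  mul_mem' := by
    intro a b ha hb
    show C.cd (a * b) ∈ l
    rw [C.mul]
    exact h2 _ ha _ hb
  one_mem' := by
    show C.cd 1 ∈ l
    rw [C.cd_one]
    exact h1
  inv_mem' := by
    intro a ha
    show C.cd a⁻¹ ∈ l
    have hp : ∀ n : ℕ, C.cd (a ^ n) ∈ l := by
      intro n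
      induction n with
      | zero =>
        rw [pow_zero, C.cd_one]
        exact h1
      | succ n ih =>
        rw [pow_succ, C.mul]
        exact h2 _ ih _ ha
    have h3 : a⁻¹ = a ^ (orderOf a - 1) := by
      apply inv_eq_of_mul_eq_one_right
      rw [← pow_succ', Nat.sub_add_cancel (orderOf_pos a), pow_orderOf_eq_one]
    rw [h3]
    exact hp _

theorem mem_sub {l : List ℕ} {h1 : idc ∈ l} {h2 : ∀ a ∈ l, ∀ b ∈ l, cmul a b ∈ l} {g : G} :
    g ∈ C.sub l h1 h2 ↔ C.cd g ∈ l := Iff.rfl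

/-- The normalizer in terms of codes. -/
theorem mem_normalizer_sub {l : List ℕ} {h1 : idc ∈ l} {h2 : ∀ a ∈ l, ∀ b ∈ l, cmul a b ∈ l}
    (hL : ∀ t ∈ l, t ∈ L) {g : G} :
    g ∈ Subgroup.normalizer ((C.sub l h1 h2 : Subgroup G) : Set G) ↔
      ∀ t ∈ l, ∃ t' ∈ l, cmul (C.cd g) t = cmul t' (C.cd g) := by
  constructor
  · intro hg t ht
    obtain ⟨τ, rfl⟩ := C.surj t (hL t ht)
    have h3 : g * τ * g⁻¹ ∈ C.sub l h1 h2 := (Subgroup.mem_normalizer_iff.mp hg τ).mp ht
    refine ⟨_, h3, ?_⟩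
    rw [← C.mul, ← C.mul]
    congr 1
    group
  · intro hg
    apply Lib.PSmall.mem_normalizer_of_conj_mem
    intro y hy
    obtain ⟨t', ht', he⟩ := hg _ hy
    obtain ⟨τ, rfl⟩ := C.surj t' (hL t' ht')
    rw [← C.mul, ← C.mul] at he
    have h3 := C.inj he
    have h4 : g * y * g⁻¹ = τ := by
      rw [h3]
      group
    rw [h4]
    exact ht'

theorem card_normalizer_sub {l : List ℕ} {h1 : idc ∈ l} {h2 : ∀ a ∈ l, ∀ b ∈ l, cmul a b ∈ l}
    (hL : ∀ t ∈ l, t ∈ L) :
    Nat.card (Subgroup.normalizer ((C.sub l h1 h2 : Subgroup G) : Set G)) =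
      (L.filter (fun c => decide (∀ t ∈ l, ∃ t' ∈ l, cmul c t = cmul t' c))).length := by
  rw [← C.card_subtype (fun c => ∀ t ∈ l, ∃ t' ∈ l, cmul c t = cmul t' c)]
  apply Nat.card_congr
  exact Equiv.subtypeEquivRight (fun g => C.mem_normalizer_sub hL)

theorem card_sub {l : List ℕ} {h1 : idc ∈ l} {h2 : ∀ a ∈ l, ∀ b ∈ l, cmul a b ∈ l} (hnd : l.Nodup)
    (hL : ∀ t ∈ l, t ∈ L) : Nat.card (C.sub l h1 h2 : Subgroup G) = l.length := by
  rw [← card_mem_list hnd]
  apply Nat.card_congr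
  refine Equiv.ofBijective (fun g => ⟨C.cd g.1, g.2⟩) ⟨?_, ?_⟩
  · intro a b hab
    exact Subtype.ext (C.inj (congrArg Subtype.val hab))
  · rintro ⟨c, hc⟩
    obtain ⟨g, rfl⟩ := C.surj c (hL c hc)
    exact ⟨⟨g, hc⟩, rfl⟩

end Finite

end Code

end Cfsg.Agent.Lib.SmallSimple.C168
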