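import Mathlib
import Cfsg.Agent.Lib.SmallSimple.Code168G
import Cfsg.Agent.Lib.ClassSizes.Basic
import Cfsg.Agent.Lib.Classical.BinAlg

/-!
Facts about the simple group of order 168, checked on codes.
-/

set_option autoImplicit false

namespace Cfsg.Agent.Lib.SmallSimple.C168

/-- A Sylow 2-subgroup. -/
def T0 : List ℕ := [16434824, 945105, 3618874, 5364807, 6365030, 8942493, 10985779, 14451948]
/-- The central involution. -/
def z0 : ℕ := 3618874
/-- An element of order 4. -/
def r0 : ℕ := 945105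
/-- An involution outside the cyclic subgroup. -/
def s0 : ℕ := 10985779
/-- The first Klein four-group. -/
def U1 : List ℕ := [16434824, 3618874, 10985779, 14451948]
/-- The second Klein four-group. -/
def U2 : List ℕ := [16434824, 3618874, 8942493, 6365030]

theorem T0_one : idc ∈ T0 := by decide +kernel
theorem T0_mul : ∀ a ∈ T0, ∀ b ∈ T0, cmul a b ∈ T0 := by decide +kernel
theorem T0_nodup : T0.Nodup := by decide +kernel
theorem T0_L : ∀ t ∈ T0, t ∈ L := by decide +kernel
theorem U1_one : idc ∈ U1 := by decide +kernel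
theorem U1_mul : ∀ a ∈ U1, ∀ b ∈ U1, cmul a b ∈ U1 := by decide +kernel
theorem U1_nodup : U1.Nodup := by decide +kernel
theorem U1_L : ∀ t ∈ U1, t ∈ L := by decide +kernel
theorem U2_one : idc ∈ U2 := by decide +kernel
theorem U2_mul : ∀ a ∈ U2, ∀ b ∈ U2, cmul a b ∈ U2 := by decide +kernel
theorem U2_nodup : U2.Nodup := by decide +kernel
theorem U2_L : ∀ t ∈ U2, t ∈ L := by decide +kernel

theorem count2 : (L.filter (fun c => decide (c ≠ idc ∧ p2 c = idc))).length = 21 := by decide +kernel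
theorem count3 : (L.filter (fun c => decide (c ≠ idc ∧ p3 c = idc))).length = 56 := by decide +kernel
theorem count4 : (L.filter (fun c => decide (p2 c ≠ idc ∧ p4 c = idc))).length = 42 := by decide +kernel
theorem count7 : (L.filter (fun c => decide (c ≠ idc ∧ p7 c = idc))).length = 48 := by decide +kernel

/-- Representative of order 3. -/
def w3 : ℕ := (L.filter (fun c => decide (c ≠ idc ∧ p3 c = idc))).headD 0
/-- Representative of order 4. -/
def w4 : ℕ := r0

theorem conj2 : ∀ c ∈ L, (c ≠ idc ∧ p2 c = idc) → ∃ g ∈ L, cmul g c = cmul z0 g := by decide +kernel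
theorem conj3 : ∀ c ∈ L, (c ≠ idc ∧ p3 c = idc) → ∃ g ∈ L, cmul g c = cmul w3 g := by decide +kernel
theorem conj4 : ∀ c ∈ L, (p2 c ≠ idc ∧ p4 c = idc) → ∃ g ∈ L, cmul g c = cmul w4 g := by decide +kernel
theorem z0_L : z0 ∈ L := by decide +kernel
theorem w3_L : w3 ∈ L := by decide +kernel
theorem w4_L : w4 ∈ L := by decide +kernel

theorem cent7 : ∀ c ∈ L, (c ≠ idc ∧ p7 c = idc) → (L.filter (fun d => decide (cmul d c = cmul c d))).length = 7 := by
  decide +kernel

theorem notconj7 : ∀ c ∈ L, (c ≠ idc ∧ p7 c = idc) → ∀ d ∈ L, cmul c (cmul d c) ≠ d := by decide +kernel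

theorem norm_T0 : ∀ c ∈ L, (∀ t ∈ T0, ∃ t' ∈ T0, cmul c t = cmul t' c) → c ∈ T0 := by decide +kernel
theorem norm_T0_card :
    (L.filter (fun c => decide (∀ t ∈ T0, ∃ t' ∈ T0, cmul c t = cmul t' c))).length = 8 := by decide +kernel
theorem T0_center : ∀ c ∈ T0, (∀ t ∈ T0, cmul t c = cmul c t) → c ≠ idc → c = z0 := by decide +kernel
theorem cent_z0 : ∀ c ∈ L, cmul c z0 = cmul z0 c ↔ c ∈ T0 := by decide +kernel

theorem r0_order : p2 r0 ≠ idc ∧ p4 r0 = idc := by decide +kernel
theorem s0_mul : p2 s0 = idc := by decide +kernel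
theorem s0_r0 : cmul s0 (cmul r0 s0) = p3 r0 := by decide +kernel
theorem r0_T0 : r0 ∈ T0 := by decide +kernel
theorem s0_T0 : s0 ∈ T0 := by decide +kernel
theorem s0_ne : s0 ≠ idc ∧ s0 ≠ r0 ∧ s0 ≠ p2 r0 ∧ s0 ≠ p3 r0 := by decide +kernel
theorem T0_cover : ∀ c ∈ T0, c = idc ∨ c = r0 ∨ c = p2 r0 ∨ c = p3 r0 ∨ c = s0 ∨ c = cmul s0 r0 ∨
    c = cmul s0 (p2 r0) ∨ c = cmul s0 (p3 r0) := by decide +kernel

namespace Code

variable {G : Type*} [Group G] (C : Code G)

theorem isConj_of_cd {a b g : G} (h : cmul (C.cd g) (C.cd a) = cmul (C.cd b) (C.cd g)) : IsConj a b := by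
  rw [← C.mul, ← C.mul] at h
  have h1 := C.inj h
  rw [isConj_iff]
  refine ⟨g, ?_⟩
  rw [h1]
  group

/-- All elements whose code satisfy `P` are conjugate. -/
theorem isConj_of_rep (P : ℕ → Prop) (r : ℕ) (hr : r ∈ L)
    (chk : ∀ c ∈ L, P c → ∃ g ∈ L, cmul g c = cmul r g) {s t : G} (hs : P (C.cd s)) (ht : P (C.cd t)) :
    IsConj s t := by
  obtain ⟨ρ, rfl⟩ := C.surj r hr
  have key : ∀ a : G, P (C.cd a) → IsConj a ρ := by
    intro a ha
    obtain ⟨d, hd, he⟩ := chk _ (C.mem a) ha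
    obtain ⟨g, rfl⟩ := C.surj d hd
    exact C.isConj_of_cd he
  exact (key s hs).trans (key t ht).symm

section

variable [Finite G]

/-- The fixed Sylow 2-subgroup. -/
def tt : Subgroup G := C.sub T0 T0_one T0_mul

/-- The fixed Klein four-groups. -/
def uu1 : Subgroup G := C.sub U1 U1_one U1_mul

/-- The fixed Klein four-groups. -/
def uu2 : Subgroup G := C.sub U2 U2_one U2_mul

theorem card_tt : Nat.card C.tt = 8 := by
  rw [tt, C.card_sub T0_nodup T0_L]
  rfl

theorem card_uu1 : Nat.card C.uu1 = 4 := by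
  rw [uu1, C.card_sub U1_nodup U1_L]
  rfl

theorem card_uu2 : Nat.card C.uu2 = 4 := by
  rw [uu2, C.card_sub U2_nodup U2_L]
  rfl

theorem card_normalizer_tt : Nat.card (Subgroup.normalizer ((C.tt : Subgroup G) : Set G)) = 8 := by
  rw [tt, C.card_normalizer_sub T0_L, norm_T0_card]

theorem normalizer_tt : Subgroup.normalizer ((C.tt : Subgroup G) : Set G) = C.tt := by
  apply le_antisymm
  · intro g hg
    exact norm_T0 _ (C.mem g) ((C.mem_normalizer_sub T0_L).mp hg)
  · exact Subgroup.le_normalizer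

end

theorem card_sylow_two {G : Type*} [Group G] [Finite G] (hG : Nat.card G = 168) [Fact (Nat.Prime 2)] (P : Sylow 2 G) :
    Nat.card (P : Subgroup G) = 8 := by
  rw [P.card_eq_multiplicity, hG]
  have h1 : (168 : ℕ) = 2 ^ 3 * 21 := by norm_num
  have h2 : (21 : ℕ).factorization 2 = 0 := Nat.factorization_eq_zero_of_not_dvd (by norm_num)
  rw [h1, Nat.factorization_mul (by norm_num) (by norm_num), Nat.factorization_pow, Finsupp.add_apply,
    Finsupp.smul_apply, h2, Nat.prime_two.factorization_self]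
  norm_num

/-- Every Sylow 2-subgroup is the fixed one for a conjugate code. -/
theorem exists_code_sylow [Finite G] (C : Code G) (hG : Nat.card G = 168) (T : Sylow 2 G) :
    ∃ C' : Code G, (T : Subgroup G) = C'.tt := by
  haveI : Fact (Nat.Prime 2) := ⟨Nat.prime_two⟩
  obtain ⟨P⟩ : Nonempty (Sylow 2 G) := inferInstance
  have hP := card_sylow_two hG P
  have hmul : Nat.card C.tt = 2 ^ (Nat.card G).factorization 2 := by
    rw [C.card_tt, ← P.card_eq_multiplicity, hP]
  let S₀ : Sylow 2 G := Sylow.ofCard C.tt hmul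
  obtain ⟨g, hg⟩ := MulAction.exists_smul_eq G S₀ T
  refine ⟨C.conj g, ?_⟩
  ext x
  rw [← hg]
  exact (Lib.ClassSizes.mem_sylow_smul_iff (P := S₀) (g := g) (x := x)).trans Iff.rfl

end Code

end Cfsg.Agent.Lib.SmallSimple.C168
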