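import Mathlib
import Cfsg.Agent.Lib.SmallSimple.Code168Facts
import Cfsg.Agent.Lib.Core.Solvable
import Cfsg.Agent.Lib.Char.Burnside
import Cfsg.Agent.Lib.Cl.SmallSimple
import Cfsg.Agent.Lib.PGroup.Basic
import Cfsg.Agent.S1012

/-!
Klein four-groups and maximal subgroups of the simple group of order 168, through codes.
-/

set_option autoImplicit false

namespace Cfsg.Agent.Lib.SmallSimple.C168

/-- A Sylow 3-subgroup lying in the normalizer of `U1`. -/
def P3 : List ℕ := [16434824, 3913000, 12101880]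
/-- A Sylow 7-subgroup. -/
def P7 : List ℕ := [16434824, 11744208, 13505912, 8761256, 6880048, 4021472, 5761112]
/-- Normalizer of `U1`. -/
def NU1 : List ℕ := [16434824, 3913000, 12101880, 9272641, 945105, 5005217, 14124810, 16040178, 3618874,
  15156267, 10985779, 13011131, 12527116, 14451948, 4108468, 6954437, 8942493, 650853, 8518230, 4346846,
  6365030, 5364807, 7347095, 1139551]
/-- Normalizer of `U2`. -/
def NU2 : List ℕ := [16434824, 2838360, 7685048, 11789505, 945105, 6152489, 9977674, 14857122, 3618874,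
  13675459, 1977451, 10985779, 11504724, 14451948, 4557812, 7960589, 8942493, 2324133, 15374366, 6365030,
  9705150, 5364807, 13422871, 414967]

theorem P3_one : idc ∈ P3 := by decide +kernel
theorem P3_mul : ∀ a ∈ P3, ∀ b ∈ P3, cmul a b ∈ P3 := by decide +kernel
theorem P3_nodup : P3.Nodup := by decide +kernel
theorem P3_L : ∀ t ∈ P3, t ∈ L := by decide +kernel
theorem P7_one : idc ∈ P7 := by decide +kernel
theorem P7_mul : ∀ a ∈ P7, ∀ b ∈ P7, cmul a b ∈ P7 := by decide +kernel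
theorem P7_nodup : P7.Nodup := by decide +kernel
theorem P7_L : ∀ t ∈ P7, t ∈ L := by decide +kernel

/-- The element with code `c` normalizes the subset with codes `l`. -/
abbrev nrm (l : List ℕ) (c : ℕ) : Prop := ∀ t ∈ l, ∃ t' ∈ l, cmul c t = cmul t' c

theorem nrm_U1_card : (L.filter (fun c => decide (∀ t ∈ U1, ∃ t' ∈ U1, cmul c t = cmul t' c))).length = 24 := by
  decide +kernel
theorem nrm_U2_card : (L.filter (fun c => decide (∀ t ∈ U2, ∃ t' ∈ U2, cmul c t = cmul t' c))).length = 24 := by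
  decide +kernel
theorem nrm_P7_card : (L.filter (fun c => decide (∀ t ∈ P7, ∃ t' ∈ P7, cmul c t = cmul t' c))).length = 21 := by
  decide +kernel
theorem nrm_U1_iff : ∀ c ∈ L, nrm U1 c → c ∈ NU1 := by decide +kernel
theorem nrm_U2_iff : ∀ c ∈ L, nrm U2 c → c ∈ NU2 := by decide +kernel
theorem NU1_nrm : ∀ c ∈ NU1, c ∈ L ∧ nrm U1 c := by decide +kernel
theorem NU2_nrm : ∀ c ∈ NU2, c ∈ L ∧ nrm U2 c := by decide +kernel

theorem nonconj_NU : ∀ g ∈ L, ∃ c ∈ NU2, ∀ d ∈ NU1, cmul g d ≠ cmul c g := by decide +kernel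
theorem nonconj_U12 : ∀ g ∈ L, ∃ c ∈ U2, ∀ d ∈ U1, cmul g d ≠ cmul c g := by decide +kernel
theorem nonconj_U21 : ∀ g ∈ L, ∃ c ∈ U1, ∀ d ∈ U2, cmul g d ≠ cmul c g := by decide +kernel

theorem nonab_P7 : ∃ a ∈ L, ∃ b ∈ L, nrm P7 a ∧ nrm P7 b ∧ cmul a b ≠ cmul b a := by decide +kernel

theorem sub_T0 : ∀ l ∈ T0.sublists, idc ∈ l → (∃ a ∈ l, a ≠ idc) → (∀ a ∈ l, ∀ b ∈ l, cmul a b ∈ l) →
    (∀ g ∈ L, nrm l g → nrm U1 g) ∨ (∀ g ∈ L, nrm l g → nrm U2 g) := by decide +kernel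
theorem sub_P3 : ∀ l ∈ P3.sublists, idc ∈ l → (∃ a ∈ l, a ≠ idc) → (∀ a ∈ l, ∀ b ∈ l, cmul a b ∈ l) →
    (∀ g ∈ L, nrm l g → nrm U1 g) := by decide +kernel
theorem sub_P7 : ∀ l ∈ P7.sublists, idc ∈ l → (∃ a ∈ l, a ≠ idc) → (∀ a ∈ l, ∀ b ∈ l, cmul a b ∈ l) →
    (∀ g ∈ L, nrm l g → nrm P7 g) := by decide +kernel

theorem klein_T0 : ∀ a ∈ T0, ∀ b ∈ T0, a ≠ idc → b ≠ idc → a ≠ b → p2 a = idc → p2 b = idc →
    cmul a b = cmul b a → (a ∈ U1 ∧ b ∈ U1) ∨ (a ∈ U2 ∧ b ∈ U2) := by decide +kernel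

theorem U1_sq : ∀ a ∈ U1, a = idc ∨ p2 a = idc := by decide +kernel
theorem U2_sq : ∀ a ∈ U2, a = idc ∨ p2 a = idc := by decide +kernel
theorem U1_T0 : ∀ a ∈ U1, a ∈ T0 := by decide +kernel
theorem U2_T0 : ∀ a ∈ U2, a ∈ T0 := by decide +kernel
theorem U1_ne_U2 : ∃ a ∈ U1, a ∉ U2 := by decide +kernel
theorem idc_sq : p2 idc = idc := by decide +kernel

theorem factorization_aux (p k m : ℕ) (hp : p.Prime) (hm : ¬ p ∣ m) :
    (p ^ k * m).factorization p = k := by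
  have hm0 : m ≠ 0 := by
    rintro rfl
    exact hm (dvd_zero _)
  rw [Nat.factorization_mul (pow_ne_zero _ hp.ne_zero) hm0, Nat.factorization_pow, Finsupp.add_apply,
    Finsupp.smul_apply, Nat.factorization_eq_zero_of_not_dvd hm, hp.factorization_self]
  simp

namespace Code

variable {G : Type*} [Group G] [Finite G] (C : Code G)

theorem mem_uu1 {x : G} : x ∈ C.uu1 ↔ C.cd x ∈ U1 := Iff.rfl
theorem mem_uu2 {x : G} : x ∈ C.uu2 ↔ C.cd x ∈ U2 := Iff.rfl
theorem mem_tt {x : G} : x ∈ C.tt ↔ C.cd x ∈ T0 := Iff.rfl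

theorem uu1_le : C.uu1 ≤ C.tt := fun _ hx => U1_T0 _ hx
theorem uu2_le : C.uu2 ≤ C.tt := fun _ hx => U2_T0 _ hx

theorem uu1_ne_uu2 : C.uu1 ≠ C.uu2 := by
  intro h
  obtain ⟨a, ha, ha'⟩ := U1_ne_U2
  obtain ⟨x, rfl⟩ := C.surj a (U1_L a ha)
  exact ha' ((C.mem_uu2).mp (h ▸ (C.mem_uu1).mpr ha))

/-- A list of four codes of involutions and the identity gives a Klein four-group. -/
theorem isKlein_sub {l : List ℕ} {h1 : idc ∈ l} {h2 : ∀ a ∈ l, ∀ b ∈ l, cmul a b ∈ l} (hnd : l.Nodup)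
    (hL : ∀ t ∈ l, t ∈ L) (h4 : l.length = 4) (hsq : ∀ a ∈ l, a = idc ∨ p2 a = idc) :
    IsKleinFour (C.sub l h1 h2) := by
  have hcard : Nat.card (C.sub l h1 h2) = 4 := by rw [C.card_sub hnd hL, h4]
  refine ⟨hcard, ?_⟩
  haveI : Nontrivial (C.sub l h1 h2) := by
    rw [← Finite.one_lt_card_iff_nontrivial, hcard]
    norm_num
  refine (Monoid.exponent_eq_prime_iff Nat.prime_two).mpr ?_
  rintro ⟨g, hg⟩ hg1
  rw [Subgroup.orderOf_mk, C.orderOf_two_iff]
  have hg2 : g ≠ 1 := fun h => hg1 (Subtype.ext h)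
  have hg3 : C.cd g ≠ idc := fun h => hg2 (C.eq_one_iff.mpr h)
  exact ⟨hg3, (hsq _ hg).resolve_left hg3⟩

theorem isKlein_uu1 : IsKleinFour C.uu1 := C.isKlein_sub U1_nodup U1_L rfl U1_sq
theorem isKlein_uu2 : IsKleinFour C.uu2 := C.isKlein_sub U2_nodup U2_L rfl U2_sq

/-- A Klein four-subgroup of the fixed Sylow subgroup is one of the two fixed ones. -/
theorem klein_cases {U : Subgroup G} (hU : U ≤ C.tt) [hK : IsKleinFour U] : U = C.uu1 ∨ U = C.uu2 := by
  classical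
  haveI : Fintype U := Fintype.ofFinite _
  have hc : Nat.card U = 4 := IsKleinFour.card_four
  have hc' : Fintype.card U = 4 := by rw [← Nat.card_eq_fintype_card, hc]
  haveI : Nontrivial U := by
    rw [← Finite.one_lt_card_iff_nontrivial, hc]
    norm_num
  obtain ⟨a, ha⟩ := exists_ne (1 : U)
  obtain ⟨b, hb, hba⟩ : ∃ b : U, b ≠ 1 ∧ b ≠ a := by
    by_contra hcon
    push Not at hcon
    have hle : (Finset.univ : Finset U) ⊆ {1, a} := by
      intro b _
      by_cases hb : b = 1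
      · simp [hb]
      · simp [hcon b hb]
    have h1 := Finset.card_le_card hle
    rw [Finset.card_univ, hc'] at h1
    have h2 : ({1, a} : Finset U).card ≤ 2 := Finset.card_le_two
    omega
  have hsq : ∀ x : U, (x : G) * x = 1 := by
    intro x
    have := IsKleinFour.mul_self x
    exact congrArg Subtype.val this
  have hab : (a : G) * b = b * a := by
    have h1 := hsq (a * b)
    have h2 := hsq a
    have h3 := hsq b
    have h4 : ((a * b : U) : G) = a * b := rfl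
    rw [h4] at h1
    have h5 : (a : G)⁻¹ = a := inv_eq_of_mul_eq_one_left h2
    have h6 : (b : G)⁻¹ = b := inv_eq_of_mul_eq_one_left h3
    calc (a : G) * b = ((a : G) * b)⁻¹ := eq_inv_of_mul_eq_one_left h1
      _ = b * a := by rw [mul_inv_rev, h5, h6]
  have hcd : ∀ x : U, C.cd (x : G) ∈ T0 := fun x => hU x.2
  have hnd : ∀ x : U, x ≠ 1 → C.cd (x : G) ≠ idc := by
    intro x hx h0
    exact hx (Subtype.ext (C.eq_one_iff.mpr h0))
  have hp2 : ∀ x : U, p2 (C.cd (x : G)) = idc := by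
    intro x
    rw [← C.cd_pow2, pow_two, hsq x, C.cd_one]
  have hne : C.cd (a : G) ≠ C.cd (b : G) := by
    intro h0
    exact hba (Subtype.ext (C.inj h0)).symm
  have hcomm : cmul (C.cd (a : G)) (C.cd (b : G)) = cmul (C.cd (b : G)) (C.cd (a : G)) := by
    rw [← C.mul, ← C.mul, hab]
  have hle : ∀ V : Subgroup G, (a : G) ∈ V → (b : G) ∈ V → Nat.card V = 4 → U = V := by
    intro V h1 h2 hV
    apply Subgroup.eq_of_le_of_card_ge
    · intro x hx
      by_cases hx1 : (⟨x, hx⟩ : U) = 1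
      · have : x = 1 := congrArg Subtype.val hx1
        rw [this]
        exact V.one_mem
      by_cases hxa : (⟨x, hx⟩ : U) = a
      · have : x = a := congrArg Subtype.val hxa
        rw [this]
        exact h1
      by_cases hxb : (⟨x, hx⟩ : U) = b
      · have : x = b := congrArg Subtype.val hxb
        rw [this]
        exact h2
      have h7 := IsKleinFour.eq_mul_of_ne_all ha hb (Ne.symm hba) hx1 hxa hxb
      have h8 : x = a * b := congrArg Subtype.val h7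
      rw [h8]
      exact V.mul_mem h1 h2
    · rw [hV, hc]
  rcases klein_T0 _ (hcd a) _ (hcd b) (hnd a ha) (hnd b hb) hne (hp2 a) (hp2 b) hcomm with h | h
  · exact Or.inl (hle _ h.1 h.2 C.card_uu1)
  · exact Or.inr (hle _ h.1 h.2 C.card_uu2)

/-- Code of a conjugate subgroup. -/
theorem conj_sub (l : List ℕ) (h1 : idc ∈ l) (h2 : ∀ a ∈ l, ∀ b ∈ l, cmul a b ∈ l) (g : G) :
    (C.conj g).sub l h1 h2 = (C.sub l h1 h2).map (MulAut.conj g).toMonoidHom := by
  ext x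
  rw [Subgroup.mem_map_equiv, MulAut.conj_symm_apply]
  exact Iff.rfl

/-- Normalizer of the subset with a list of codes. -/
def nn (l : List ℕ) (h1 : idc ∈ l) (h2 : ∀ a ∈ l, ∀ b ∈ l, cmul a b ∈ l) : Subgroup G :=
  Subgroup.normalizer ((C.sub l h1 h2 : Subgroup G) : Set G)

theorem mem_nn {l : List ℕ} {h1 : idc ∈ l} {h2 : ∀ a ∈ l, ∀ b ∈ l, cmul a b ∈ l} (hL : ∀ t ∈ l, t ∈ L) {g : G} :
    g ∈ C.nn l h1 h2 ↔ nrm l (C.cd g) := C.mem_normalizer_sub hL

theorem conj_nn {l : List ℕ} {h1 : idc ∈ l} {h2 : ∀ a ∈ l, ∀ b ∈ l, cmul a b ∈ l} (hL : ∀ t ∈ l, t ∈ L) (g : G) :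
    (C.conj g).nn l h1 h2 = (C.nn l h1 h2).map (MulAut.conj g).toMonoidHom := by
  ext x
  rw [Subgroup.mem_map_equiv, MulAut.conj_symm_apply, C.mem_nn hL, (C.conj g).mem_nn hL]
  exact Iff.rfl

/-- The normalizer of the first Klein four-group. -/
abbrev nU1 : Subgroup G := C.nn U1 U1_one U1_mul
/-- The normalizer of the second Klein four-group. -/
abbrev nU2 : Subgroup G := C.nn U2 U2_one U2_mul
/-- The normalizer of the fixed Sylow 7-subgroup. -/
abbrev nP7 : Subgroup G := C.nn P7 P7_one P7_mul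

theorem card_nU1 : Nat.card C.nU1 = 24 := by
  exact (C.card_normalizer_sub U1_L).trans nrm_U1_card

theorem card_nU2 : Nat.card C.nU2 = 24 := by
  exact (C.card_normalizer_sub U2_L).trans nrm_U2_card

theorem card_nP7 : Nat.card C.nP7 = 21 := by
  exact (C.card_normalizer_sub P7_L).trans nrm_P7_card

/-- Any subgroup of order 24 is a symmetric group of degree 4. -/
theorem iso_of_card (C : Code G) {M : Subgroup G} (hM : Nat.card M = 24) : Nonempty (M ≃* Equiv.Perm (Fin 4)) := by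
  apply Cfsg.Agent.S1012.result hM
  intro g hg
  have h1 := C.orderOf_cases (g : G)
  rw [Subgroup.orderOf_coe, hg] at h1
  omega

theorem iso_nU1 : Nonempty (C.nU1 ≃* Equiv.Perm (Fin 4)) := C.iso_of_card C.card_nU1
theorem iso_nU2 : Nonempty (C.nU2 ≃* Equiv.Perm (Fin 4)) := C.iso_of_card C.card_nU2

theorem not_comm_nP7 : ¬ IsMulCommutative C.nP7 := by
  intro hc
  obtain ⟨a, ha, b, hb, hna, hnb, hab⟩ := nonab_P7
  obtain ⟨x, rfl⟩ := C.surj a ha
  obtain ⟨y, rfl⟩ := C.surj b hb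
  have h1 : x ∈ C.nP7 := (C.mem_nn P7_L).mpr hna
  have h2 : y ∈ C.nP7 := (C.mem_nn P7_L).mpr hnb
  have h3 := hc.is_comm.comm (⟨x, h1⟩ : C.nP7) ⟨y, h2⟩
  have h4 : x * y = y * x := congrArg Subtype.val h3
  apply hab
  rw [← C.mul, ← C.mul, h4]

theorem coatom_of_index_seven {M : Subgroup G} (hG : Nat.card G = 168) (hM : Nat.card M = 24) : IsCoatom M := by
  apply Lib.PGroup.isCoatom_of_index_prime
  have h1 := M.card_mul_index
  rw [hG, hM] at h1
  have h2 : M.index = 7 := by omega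
  rw [h2]
  norm_num

theorem nonconj_nU (g : G) : C.nU2 ≠ C.nU1.map (MulAut.conj g).toMonoidHom := by
  intro h
  obtain ⟨c, hc, hd⟩ := nonconj_NU _ (C.mem g)
  obtain ⟨y, rfl⟩ := C.surj c (NU2_nrm _ hc).1
  have h1 : y ∈ C.nU2 := (C.mem_nn U2_L).mpr (NU2_nrm _ hc).2
  rw [h, Subgroup.mem_map_equiv, MulAut.conj_symm_apply] at h1
  have h2 := (C.mem_nn U1_L).mp h1
  apply hd _ (nrm_U1_iff _ (C.mem _) h2)
  rw [← C.mul, ← C.mul]
  congr 1
  group

theorem nonconj_uu12 (g : G) : C.uu1.map (MulAut.conj g).toMonoidHom ≠ C.uu2 := by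
  intro h
  obtain ⟨c, hc, hd⟩ := nonconj_U12 _ (C.mem g)
  obtain ⟨y, rfl⟩ := C.surj c (U2_L _ hc)
  have h1 : y ∈ C.uu2 := hc
  rw [← h, Subgroup.mem_map_equiv, MulAut.conj_symm_apply] at h1
  apply hd _ h1
  rw [← C.mul, ← C.mul]
  congr 1
  group

theorem nonconj_uu21 (g : G) : C.uu2.map (MulAut.conj g).toMonoidHom ≠ C.uu1 := by
  intro h
  obtain ⟨c, hc, hd⟩ := nonconj_U21 _ (C.mem g)
  obtain ⟨y, rfl⟩ := C.surj c (U1_L _ hc)
  have h1 : y ∈ C.uu1 := hc
  rw [← h, Subgroup.mem_map_equiv, MulAut.conj_symm_apply] at h1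
  apply hd _ h1
  rw [← C.mul, ← C.mul]
  congr 1
  group

/-- Sublist attached to a nontrivial subgroup of a subgroup with codes in a list. -/
theorem exists_sublist (S₀ : List ℕ) (hS₀ : S₀.Nodup) (R : Subgroup G) (hR : ∀ x ∈ R, C.cd x ∈ S₀) (hL : ∀ t ∈ S₀, t ∈ L)
    (hR1 : R ≠ ⊥) :
    ∃ l ∈ S₀.sublists, idc ∈ l ∧ (∃ a ∈ l, a ≠ idc) ∧ (∀ a ∈ l, ∀ b ∈ l, cmul a b ∈ l) ∧
      ∀ g, g ∈ Subgroup.normalizer (R : Set G) → nrm l (C.cd g) := by
  classical
  have hmem : ∀ c, c ∈ S₀.filter (fun c => decide (∃ x ∈ R, C.cd x = c)) ↔ ∃ x ∈ R, C.cd x = c := by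
    intro c
    rw [List.mem_filter]
    constructor
    · rintro ⟨_, h⟩
      simpa using h
    · rintro ⟨x, hx, rfl⟩
      exact ⟨hR x hx, by simpa using ⟨x, hx, rfl⟩⟩
  refine ⟨S₀.filter (fun c => decide (∃ x ∈ R, C.cd x = c)), ?_, ?_, ?_, ?_, ?_⟩
  · rw [List.mem_sublists]
    exact List.filter_sublist
  · rw [hmem]
    exact ⟨1, R.one_mem, C.cd_one⟩
  · obtain ⟨⟨x, hx⟩, hx1⟩ := Subgroup.ne_bot_iff_exists_ne_one.mp hR1
    refine ⟨C.cd x, (hmem _).mpr ⟨x, hx, rfl⟩, fun h => hx1 (Subtype.ext (C.eq_one_iff.mpr h))⟩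
  · intro a ha b hb
    rw [hmem] at ha hb ⊢
    obtain ⟨x, hx, rfl⟩ := ha
    obtain ⟨y, hy, rfl⟩ := hb
    exact ⟨x * y, R.mul_mem hx hy, C.mul x y⟩
  · intro g hg t ht
    rw [hmem] at ht
    obtain ⟨x, hx, rfl⟩ := ht
    have h3 : g * x * g⁻¹ ∈ R := (Subgroup.mem_normalizer_iff.mp hg x).mp hx
    refine ⟨C.cd (g * x * g⁻¹), (hmem _).mpr ⟨_, h3, rfl⟩, ?_⟩
    rw [← C.mul, ← C.mul]
    congr 1
    group

/-- Conjugating codes so that a given Sylow subgroup has the fixed list of codes. -/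
theorem exists_conj_sylow (p : ℕ) [Fact p.Prime] (l : List ℕ) (h1 : idc ∈ l) (h2 : ∀ a ∈ l, ∀ b ∈ l, cmul a b ∈ l)
    (hcard : Nat.card (C.sub l h1 h2) = p ^ (Nat.card G).factorization p) (T : Sylow p G) :
    ∃ g : G, (T : Subgroup G) = (C.conj g).sub l h1 h2 := by
  let S₀ : Sylow p G := Sylow.ofCard (C.sub l h1 h2) hcard
  obtain ⟨g, hg⟩ := MulAction.exists_smul_eq G S₀ T
  refine ⟨g, ?_⟩
  ext x
  rw [← hg]
  exact (Lib.ClassSizes.mem_sylow_smul_iff (P := S₀) (g := g) (x := x)).trans Iff.rfl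


theorem ne_top_of_card (hG : Nat.card G = 168) {K : Subgroup G} (hK : Nat.card K ≠ 168) : K ≠ ⊤ := by
  rintro rfl
  exact hK ((Subgroup.card_top).trans hG)

theorem small_orders : ∀ c ∈ List.range 25, c ∣ 168 → c ≠ 0 → ∃ p ∈ [2, 3, 7], ∃ q ∈ [2, 3, 7], ∃ a ∈ [0, 1, 2, 3],
    ∃ b ∈ [0, 1, 2, 3], c = p ^ a * q ^ b := by decide +kernel

theorem primes_aux : ∀ p ∈ [2, 3, 7], Nat.Prime p := by
  intro p hp
  simp only [List.mem_cons, List.not_mem_nil, or_false] at hp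
  rcases hp with rfl | rfl | rfl <;> norm_num

/-- A coatom contains a nontrivial normal `q`-subgroup. -/
theorem exists_pgroup_of_coatom [IsSimpleGroup G] (h : Nat.card G = 168) {M : Subgroup G}
    (hM : IsCoatom M) (hnt : M ≠ ⊥) :
    ∃ q : ℕ, q.Prime ∧ ∃ R : Subgroup G, IsPGroup q R ∧ R ≠ ⊥ ∧ M ≤ Subgroup.normalizer (R : Set G) := by
  have hne := hM.1
  have hcard := M.card_mul_index
  rw [h] at hcard
  have hdvd := Lib.Cl.two_mul_card_dvd_factorial_index (G := G) (by rw [h]; norm_num) M hne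
  rw [h] at hdvd
  have hidx : 7 ≤ M.index := by
    by_contra hlt
    push Not at hlt
    generalize M.index = i at *
    interval_cases i <;> revert hdvd <;> decide
  have hcle : Nat.card M ≤ 24 := by
    by_contra hlt
    push Not at hlt
    nlinarith
  have hcd : Nat.card M ∣ 168 := ⟨_, hcard.symm⟩
  have hc1 : Nat.card M ≠ 1 := fun h1 => hnt (Subgroup.card_eq_one.mp h1)
  have hc0 : Nat.card M ≠ 0 := Nat.card_pos.ne'
  haveI : Nontrivial M := Finite.one_lt_card_iff_nontrivial.mp (by omega)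
  haveI hsolv : Group.IsSolvable M := by
    obtain ⟨p, hp, q, hq, a, _, b, _, hab⟩ :=
      small_orders _ (List.mem_range.mpr (by omega)) hcd hc0
    exact Lib.Char.isSolvable_of_card p q a b (primes_aux p hp) (primes_aux q hq) hab
  obtain ⟨q, hq, hqne⟩ := Lib.Core.exists_prime_pCore_ne_bot (G := M)
  haveI : Fact q.Prime := ⟨hq⟩
  refine ⟨q, hq, (Cfsg.pCore q M).map M.subtype, (Lib.Core.pCore_isPGroup q M).map M.subtype, ?_, ?_⟩
  · intro h0
    exact hqne ((Subgroup.map_eq_bot_iff_of_injective _ M.subtype_injective).mp h0)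
  · intro x hx
    apply Lib.PSmall.mem_normalizer_of_conj_mem
    rintro y ⟨y', hy', rfl⟩
    refine ⟨⟨x, hx⟩ * y' * (⟨x, hx⟩ : M)⁻¹, (Lib.Core.pCore_normal q M).conj_mem _ hy' _, ?_⟩
    simp

/-- Every coatom is, after conjugating the codes, the normalizer of a fixed subgroup. -/
theorem coatom_cases [IsSimpleGroup G] (h : Nat.card G = 168) {M : Subgroup G} (hM : IsCoatom M) :
    ∃ g : G, M = (C.conj g).nU1 ∨ M = (C.conj g).nU2 ∨ M = (C.conj g).nP7 := by
  classical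
  have hnt : M ≠ ⊥ := by
    rintro rfl
    have h1 : C.nP7 = ⊤ := by
      apply hM.2
      rw [bot_lt_iff_ne_bot]
      intro h0
      have := C.card_nP7
      rw [h0] at this
      simp at this
    apply ne_top_of_card h (K := C.nP7) _ h1
    rw [C.card_nP7]
    norm_num
  obtain ⟨q, hq, R, hRp, hR1, hMR⟩ := exists_pgroup_of_coatom h hM hnt
  haveI : Fact q.Prime := ⟨hq⟩
  have hqd : q ∣ 2 ^ 3 * 3 * 7 := by
    have h1 : Nat.card R ≠ 1 := fun h1 => hR1 (Subgroup.card_eq_one.mp h1)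
    have h2 : q ∣ Nat.card R := hRp.card_eq_or_dvd.resolve_left h1
    have h3 : Nat.card R ∣ Nat.card G := Subgroup.card_subgroup_dvd_card R
    rw [h] at h3
    exact h2.trans h3
  have hq3 : q = 2 ∨ q = 3 ∨ q = 7 := by
    rcases (Nat.Prime.dvd_mul hq).mp hqd with h1 | h1
    · rcases (Nat.Prime.dvd_mul hq).mp h1 with h1 | h1
      · exact Or.inl ((Nat.prime_dvd_prime_iff_eq hq Nat.prime_two).mp (hq.dvd_of_dvd_pow h1))
      · exact Or.inr (Or.inl ((Nat.prime_dvd_prime_iff_eq hq Nat.prime_three).mp h1))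
    · exact Or.inr (Or.inr ((Nat.prime_dvd_prime_iff_eq hq (by norm_num)).mp h1))
  obtain ⟨S, hS⟩ : ∃ S : Sylow q G, R ≤ S := hRp.exists_le_sylow
  have hfinal : ∀ (C' : Code G) (t : List ℕ) (ht1 : idc ∈ t) (ht2 : ∀ a ∈ t, ∀ b ∈ t, cmul a b ∈ t)
      (htL : ∀ x ∈ t, x ∈ L) (l' : List ℕ), Nat.card (C'.nn t ht1 ht2) ≠ 168 →
      (∀ c ∈ L, nrm l' c → nrm t c) → (∀ x, x ∈ Subgroup.normalizer (R : Set G) → nrm l' (C'.cd x)) →
      M = C'.nn t ht1 ht2 := by
    intro C' t ht1 ht2 htL l' hc hchk hnrm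
    have hle : M ≤ C'.nn t ht1 ht2 := by
      intro x hx
      rw [C'.mem_nn htL]
      exact hchk _ (C'.mem x) (hnrm x (hMR hx))
    rcases lt_or_eq_of_le hle with hlt | heq
    · exact absurd (hM.2 _ hlt) (ne_top_of_card h hc)
    · exact heq
  rcases hq3 with rfl | rfl | rfl
  · have hc : Nat.card (C.sub T0 T0_one T0_mul) = 2 ^ (Nat.card G).factorization 2 := by
      rw [C.card_sub T0_nodup T0_L, h, show (168 : ℕ) = 2 ^ 3 * 21 by norm_num,
        factorization_aux 2 3 21 Nat.prime_two (by norm_num)]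
      rfl
    obtain ⟨g, hg⟩ := C.exists_conj_sylow 2 T0 T0_one T0_mul hc S
    have hR : ∀ x ∈ R, (C.conj g).cd x ∈ T0 := by
      intro x hx
      have := hS hx
      rw [hg] at this
      exact this
    obtain ⟨l, hl, h1, h2, h3, h4⟩ := (C.conj g).exists_sublist T0 T0_nodup R hR T0_L hR1
    refine ⟨g, ?_⟩
    rcases sub_T0 l hl h1 h2 h3 with hh | hh
    · refine Or.inl (hfinal _ U1 _ _ U1_L l ?_ hh h4)
      rw [(C.conj g).card_nU1]
      norm_num
    · refine Or.inr (Or.inl (hfinal _ U2 _ _ U2_L l ?_ hh h4))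
      rw [(C.conj g).card_nU2]
      norm_num
  · have hc : Nat.card (C.sub P3 P3_one P3_mul) = 3 ^ (Nat.card G).factorization 3 := by
      rw [C.card_sub P3_nodup P3_L, h, show (168 : ℕ) = 3 ^ 1 * 56 by norm_num,
        factorization_aux 3 1 56 Nat.prime_three (by norm_num)]
      rfl
    obtain ⟨g, hg⟩ := C.exists_conj_sylow 3 P3 P3_one P3_mul hc S
    have hR : ∀ x ∈ R, (C.conj g).cd x ∈ P3 := by
      intro x hx
      have := hS hx
      rw [hg] at this
      exact this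
    obtain ⟨l, hl, h1, h2, h3, h4⟩ := (C.conj g).exists_sublist P3 P3_nodup R hR P3_L hR1
    refine ⟨g, Or.inl (hfinal _ U1 _ _ U1_L l ?_ (sub_P3 l hl h1 h2 h3) h4)⟩
    rw [(C.conj g).card_nU1]
    norm_num
  · have hc : Nat.card (C.sub P7 P7_one P7_mul) = 7 ^ (Nat.card G).factorization 7 := by
      rw [C.card_sub P7_nodup P7_L, h, show (168 : ℕ) = 7 ^ 1 * 24 by norm_num,
        factorization_aux 7 1 24 (by norm_num) (by norm_num)]
      rfl
    obtain ⟨g, hg⟩ := C.exists_conj_sylow 7 P7 P7_one P7_mul hc S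
    have hR : ∀ x ∈ R, (C.conj g).cd x ∈ P7 := by
      intro x hx
      have := hS hx
      rw [hg] at this
      exact this
    obtain ⟨l, hl, h1, h2, h3, h4⟩ := (C.conj g).exists_sublist P7 P7_nodup R hR P7_L hR1
    refine ⟨g, Or.inr (Or.inr (hfinal _ P7 _ _ P7_L l ?_ (sub_P7 l hl h1 h2 h3) h4))⟩
    rw [(C.conj g).card_nP7]
    norm_num

end Code

end Cfsg.Agent.Lib.SmallSimple.C168
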