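import Mathlib
import Cfsg.Agent.Lib.SmallSimple.Recognize

/-! Simple groups of order 660 and 1092. -/

set_option autoImplicit false

namespace Cfsg.Agent.Lib.SmallSimple

theorem check11 : CheckP 11 5 [0, 0, 1, 8, 2, 4, 9, 7, 3, 6, 5] 0 := by decide +kernel

theorem tbl11 : TblOK 11 [0, 0, 1, 8, 2, 4, 9, 7, 3, 6, 5] ((2 : ZMod 11) ^ 2) 2 := by decide +kernel

theorem two_ne_zero_11 : (2 : ZMod 11) ≠ 0 := by decide

theorem psl_of_card_660 {G : Type*} [Group G] [Finite G] [IsSimpleGroup G] (h : Nat.card G = 660) :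
    Nonempty (G ≃* Matrix.ProjectiveSpecialLinearGroup (Fin 2) (ZMod 11)) := by
  haveI : Fact (Nat.Prime 11) := ⟨by norm_num⟩
  exact psl_of_simple_order (m := 5) (M := 60) (not_comm_of_not_prime (by rw [h]; norm_num))
    (by rw [h]) (by rw [h]) (by norm_num) (by decide) (by norm_num) 2 2 two_ne_zero_11 two_ne_zero_11 _ tbl11 check11

theorem check13 : CheckP 13 6 [0, 0, 1, 4, 2, 9, 5, 11, 3, 8, 10, 7, 6] 0 := by decide +kernel

theorem tbl13 : TblOK 13 [0, 0, 1, 4, 2, 9, 5, 11, 3, 8, 10, 7, 6] ((2 : ZMod 13) ^ 2) 2 := by decide +kernel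

theorem two_ne_zero_13 : (2 : ZMod 13) ≠ 0 := by decide

theorem psl_of_card_1092 {G : Type*} [Group G] [Finite G] [IsSimpleGroup G] (h : Nat.card G = 1092) :
    Nonempty (G ≃* Matrix.ProjectiveSpecialLinearGroup (Fin 2) (ZMod 13)) := by
  haveI : Fact (Nat.Prime 13) := ⟨by norm_num⟩
  exact psl_of_simple_order (m := 6) (M := 84) (not_comm_of_not_prime (by rw [h]; norm_num))
    (by rw [h]) (by rw [h]) (by norm_num) (by decide) (by norm_num) 2 2 two_ne_zero_13 two_ne_zero_13 _ tbl13 check13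

end Cfsg.Agent.Lib.SmallSimple
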