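import Mathlib
import Cfsg.Agent.Lib.SmallSimple.Tools
import Cfsg.Agent.Lib.Perm.Basic

/-!
Groups with exactly twenty-one Sylow 5-subgroups, first part: the intersection of two different
Sylow 5-subgroups has index five in each, and a Sylow 5-subgroup of a group acting faithfully on
them has order five.
-/

set_option autoImplicit false

namespace Cfsg.Agent.Lib.SmallSimple.Syl21

open Subgroup MulAction

variable {G : Type*} [Group G] [Finite G]

instance fact5 : Fact (Nat.Prime 5) := ⟨by norm_num⟩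
instance fact7 : Fact (Nat.Prime 7) := ⟨by norm_num⟩

theorem mem_smul_sylow {p : ℕ} [Fact p.Prime] (g x : G) (Q : Sylow p G) :
    x ∈ ((g • Q : Sylow p G) : Subgroup G) ↔ g⁻¹ * x * g ∈ (Q : Subgroup G) := by
  rw [Sylow.coe_subgroup_smul, Subgroup.mem_pointwise_smul_iff_inv_smul_mem]
  simp [MulAut.smul_def, MulAut.conj_apply]

/-- The orbit of `Q` under `P` has size `[P : P ∩ Q]`. -/
theorem orbit_ncard_eq {p : ℕ} [Fact p.Prime] (P Q : Sylow p G) :
    (orbit (P : Subgroup G) Q).ncard =
      ((P : Subgroup G) ⊓ (Q : Subgroup G)).relIndex (P : Subgroup G) := by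
  have h3 := MulAction.index_stabilizer (P : Subgroup G) Q
  rw [← h3]
  show _ = (((P : Subgroup G) ⊓ (Q : Subgroup G)).subgroupOf (P : Subgroup G)).index
  congr 1
  ext u
  rw [MulAction.mem_stabilizer_iff, Subgroup.mem_subgroupOf, Subgroup.mem_inf]
  constructor
  · intro hu
    refine ⟨u.2, ?_⟩
    have h4 : (u : G) • Q = Q := hu
    have hnorm : (u : G) ∈ normalizer ((Q : Subgroup G) : Set G) :=
      Sylow.smul_eq_iff_mem_normalizer.mp h4
    have hpg : IsPGroup p (zpowers (u : G)) :=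
      P.isPGroup'.to_le (by rw [zpowers_le]; exact u.2)
    have h5 : zpowers (u : G) ⊓ normalizer ((Q : Subgroup G) : Set G) =
        zpowers (u : G) ⊓ (Q : Subgroup G) := IsPGroup.inf_normalizer_sylow hpg Q
    have h6 : (u : G) ∈ zpowers (u : G) ⊓ normalizer ((Q : Subgroup G) : Set G) :=
      ⟨mem_zpowers _, hnorm⟩
    rw [h5] at h6
    exact h6.2
  · rintro ⟨-, hu⟩
    show (u : G) • Q = Q
    rw [Sylow.smul_eq_iff_mem_normalizer]
    exact Subgroup.le_normalizer hu

theorem smul_self_of_mem {p : ℕ} [Fact p.Prime] (P : Sylow p G) {g : G} (hg : g ∈ (P : Subgroup G)) :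
    g • P = P := by
  rw [Sylow.smul_eq_iff_mem_normalizer]
  exact Subgroup.le_normalizer hg

/-- Nothing but `P` is fixed when the orbit avoids `P`. -/
theorem smul_ne_of_ne {p : ℕ} [Fact p.Prime] {P Q : Sylow p G} (hne : Q ≠ P) {g : G}
    (hg : g ∈ (P : Subgroup G)) : g • Q ≠ P := by
  intro h
  apply hne
  rw [← smul_self_of_mem P hg] at h
  exact smul_left_cancel g h

variable (h21 : Nat.card (Sylow 5 G) = 21)
include h21

theorem ncard_compl_singleton (P : Sylow 5 G) : ({P}ᶜ : Set (Sylow 5 G)).ncard = 20 := by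
  have h := Set.ncard_add_ncard_compl ({P} : Set (Sylow 5 G))
  rw [Set.ncard_singleton, h21] at h
  omega

/-- The intersection of two different Sylow subgroups has index five. -/
theorem relIndex_eq_five (P Q : Sylow 5 G) (hne : Q ≠ P) :
    ((P : Subgroup G) ⊓ (Q : Subgroup G)).relIndex (P : Subgroup G) = 5 := by
  have h1 : (orbit (P : Subgroup G) Q) ⊆ ({P}ᶜ : Set (Sylow 5 G)) := by
    rintro _ ⟨g, rfl⟩
    exact smul_ne_of_ne hne g.2
  have h2 := Set.ncard_le_ncard h1 (Set.toFinite _)
  rw [ncard_compl_singleton h21, orbit_ncard_eq] at h2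
  have h3 : ((P : Subgroup G) ⊓ (Q : Subgroup G)).relIndex (P : Subgroup G) ∣ Nat.card (P : Subgroup G) :=
    Subgroup.relIndex_dvd_card _ _
  rw [P.card_eq_multiplicity] at h3
  obtain ⟨k, -, hk⟩ := (Nat.dvd_prime_pow (by norm_num)).mp h3
  rw [hk] at h2 ⊢
  have hk0 : k ≠ 0 := by
    rintro rfl
    apply hne
    have h4 : ((P : Subgroup G) ⊓ (Q : Subgroup G)).relIndex (P : Subgroup G) = 1 := by
      rw [hk, pow_zero]
    have h5 : (P : Subgroup G) ≤ (P : Subgroup G) ⊓ (Q : Subgroup G) := relIndex_eq_one.mp h4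
    have h6 : (P : Subgroup G) ≤ (Q : Subgroup G) := h5.trans inf_le_right
    exact Sylow.ext (P.is_maximal' Q.isPGroup' h6)
  have hk1 : k < 2 := by
    by_contra hk2
    have : 5 ^ 2 ≤ 5 ^ k := Nat.pow_le_pow_right (by norm_num) (by omega)
    omega
  have : k = 1 := by omega
  rw [this, pow_one]

/-- Orders. -/
theorem card_eq_five_mul (P Q : Sylow 5 G) (hne : Q ≠ P) :
    Nat.card (P : Subgroup G) = 5 * Nat.card ((P : Subgroup G) ⊓ (Q : Subgroup G) : Subgroup G) := by
  have h1 := relIndex_eq_five h21 P Q hne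
  have h2 := Subgroup.card_mul_index (((P : Subgroup G) ⊓ (Q : Subgroup G)).subgroupOf (P : Subgroup G))
  have h3 : Nat.card (((P : Subgroup G) ⊓ (Q : Subgroup G)).subgroupOf (P : Subgroup G)) =
      Nat.card ((P : Subgroup G) ⊓ (Q : Subgroup G) : Subgroup G) :=
    Nat.card_congr (Subgroup.subgroupOfEquivOfLe inf_le_left).toEquiv
  have h4 : (((P : Subgroup G) ⊓ (Q : Subgroup G)).subgroupOf (P : Subgroup G)).index = 5 := h1
  rw [h3, h4] at h2
  omega

theorem card_inf_eq (P Q P' Q' : Sylow 5 G) (hne : Q ≠ P) (hne' : Q' ≠ P') :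
    Nat.card ((P : Subgroup G) ⊓ (Q : Subgroup G) : Subgroup G) =
      Nat.card ((P' : Subgroup G) ⊓ (Q' : Subgroup G) : Subgroup G) := by
  have h1 := card_eq_five_mul h21 P Q hne
  have h2 := card_eq_five_mul h21 P' Q' hne'
  have h3 := card_sylow_eq 5 P P'
  omega

/-- The intersection is normal in `P`. -/
theorem conj_mem_inf (P Q : Sylow 5 G) (hne : Q ≠ P) {r x : G} (hr : r ∈ (P : Subgroup G))
    (hx : x ∈ (P : Subgroup G) ⊓ (Q : Subgroup G)) :
    r * x * r⁻¹ ∈ (P : Subgroup G) ⊓ (Q : Subgroup G) := by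
  have hidx : (((P : Subgroup G) ⊓ (Q : Subgroup G)).subgroupOf (P : Subgroup G)).index = 5 :=
    relIndex_eq_five h21 P Q hne
  have hcard : Nat.card (P : Subgroup G) = 5 ^ (Nat.card G).factorization 5 := P.card_eq_multiplicity
  have hk0 : (Nat.card G).factorization 5 ≠ 0 := by
    intro h0
    rw [h0, pow_zero] at hcard
    have h1 := card_eq_five_mul h21 P Q hne
    omega
  have hmin : (Nat.card (P : Subgroup G)).minFac = 5 := by
    rw [hcard, Nat.Prime.pow_minFac (by norm_num) hk0]
  have hN : (((P : Subgroup G) ⊓ (Q : Subgroup G)).subgroupOf (P : Subgroup G)).Normal :=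
    Subgroup.normal_of_index_eq_minFac_card (hidx.trans hmin.symm)
  have hxP : (⟨x, hx.1⟩ : (P : Subgroup G)) ∈
      ((P : Subgroup G) ⊓ (Q : Subgroup G)).subgroupOf (P : Subgroup G) :=
    Subgroup.mem_subgroupOf.mpr hx
  have h2 := hN.conj_mem _ hxP ⟨r, hr⟩
  rw [Subgroup.mem_subgroupOf] at h2
  exact h2

/-- Conjugating by an element of `R` does not change the intersection with `R`. -/
theorem inf_smul_eq (R X : Sylow 5 G) (hne : X ≠ R) {r : G} (hr : r ∈ (R : Subgroup G)) :
    (R : Subgroup G) ⊓ ((r • X : Sylow 5 G) : Subgroup G) = (R : Subgroup G) ⊓ (X : Subgroup G) := by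
  symm
  apply Subgroup.eq_of_le_of_card_ge
  · rintro x hx
    refine ⟨hx.1, ?_⟩
    show x ∈ ((r • X : Sylow 5 G) : Subgroup G)
    rw [mem_smul_sylow]
    have h1 := conj_mem_inf h21 R X hne (R.1.inv_mem hr) hx
    rw [inv_inv] at h1
    exact h1.2
  · rw [card_inf_eq h21 R (r • X) R X (smul_ne_of_ne hne hr) hne]

/-- A faithful action on twenty-one Sylow subgroups forces order five. -/
theorem card_eq_five (hfaith : ∀ g : G, (∀ Q : Sylow 5 G, g • Q = Q) → g = 1) (P : Sylow 5 G) :
    Nat.card (P : Subgroup G) = 5 := by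
  classical
  have := Fintype.ofFinite (Sylow 5 G)
  by_contra hne5
  obtain ⟨Q, hQ⟩ : ∃ Q : Sylow 5 G, Q ≠ P := by
    by_contra hcon
    push Not at hcon
    have h1 : Nat.card (Sylow 5 G) = 1 :=
      Nat.card_eq_one_iff_unique.mpr ⟨⟨fun a b => (hcon a).trans (hcon b).symm⟩, ⟨P⟩⟩
    omega
  set D : Subgroup G := (P : Subgroup G) ⊓ (Q : Subgroup G) with hD
  have hD1 : Nat.card D ≠ 1 := by
    intro h1
    have := card_eq_five_mul h21 P Q hQ
    rw [← hD, h1] at this
    omega
  -- a Sylow subgroup missing `D`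
  obtain ⟨R₀, hR₀⟩ : ∃ R₀ : Sylow 5 G, ¬ D ≤ (R₀ : Subgroup G) := by
    by_contra hcon
    push Not at hcon
    apply hD1
    have hb : D = ⊥ := by
      rw [eq_bot_iff]
      intro x hx
      rw [Subgroup.mem_bot]
      apply hfaith
      intro R
      exact smul_self_of_mem R (hcon R hx)
    rw [hb]
    simp
  let L : Finset (Sylow 5 G) := Finset.univ.filter fun X => D ≤ (X : Subgroup G)
  have hPL : P ∈ L := by simp [L, hD]
  have hQL : Q ∈ L := by simp [L, hD]
  have hL6 : 6 ≤ L.card := by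
    have hsub : insert P (orbit (P : Subgroup G) Q).toFinset ⊆ L := by
      intro X hX
      rw [Finset.mem_insert, Set.mem_toFinset] at hX
      rcases hX with rfl | ⟨g, rfl⟩
      · exact hPL
      · simp only [L, Finset.mem_filter, Finset.mem_univ, true_and]
        intro x hx
        show x ∈ (((g : G) • Q : Sylow 5 G) : Subgroup G)
        rw [mem_smul_sylow]
        have h1 := conj_mem_inf h21 P Q hQ (P.1.inv_mem g.2) hx
        rw [inv_inv] at h1
        exact h1.2
    have hnot : P ∉ (orbit (P : Subgroup G) Q).toFinset := by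
      rw [Set.mem_toFinset]
      rintro ⟨g, hg⟩
      exact smul_ne_of_ne hQ g.2 hg
    have h1 := Finset.card_le_card hsub
    rw [Finset.card_insert_of_notMem hnot] at h1
    have h2 : (orbit (P : Subgroup G) Q).toFinset.card = 5 := by
      rw [← Set.ncard_eq_toFinset_card', orbit_ncard_eq, relIndex_eq_five h21 P Q hQ]
    omega
  have hL4 : L.card * 5 ≤ 20 := by
    let t : Sylow 5 G → Finset (Sylow 5 G) := fun X => (orbit (R₀ : Subgroup G) X).toFinset
    have hne0 : ∀ X ∈ L, X ≠ R₀ := by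
      intro X hX h
      simp only [L, Finset.mem_filter, Finset.mem_univ, true_and] at hX
      exact hR₀ (h ▸ hX)
    have hdisj : ∀ X ∈ L, ∀ Y ∈ L, X ≠ Y → Disjoint (t X) (t Y) := by
      intro X hX Y hY hXY
      rw [Finset.disjoint_left]
      intro Z hZX hZY
      simp only [t, Set.mem_toFinset] at hZX hZY
      obtain ⟨a, rfl⟩ := hZX
      obtain ⟨b, hb⟩ := hZY
      -- `Y` is a conjugate of `X` under `R₀`
      have hYX : Y = ((b⁻¹ * a : (R₀ : Subgroup G)) : G) • X := by
        have h1 : (b : G) • Y = (a : G) • X := hb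
        have h2 : (((b⁻¹ * a : (R₀ : Subgroup G)) : G)) • X = ((b : G)⁻¹) • ((a : G) • X) := by
          rw [← mul_smul]
          rfl
        rw [h2, ← h1, inv_smul_smul]
      have hinf : (R₀ : Subgroup G) ⊓ (Y : Subgroup G) = (R₀ : Subgroup G) ⊓ (X : Subgroup G) := by
        rw [hYX]
        exact inf_smul_eq h21 R₀ X (hne0 X hX) (b⁻¹ * a).2
      have hDX : D ≤ (X : Subgroup G) := by
        simpa [L] using hX
      have hDY : D ≤ (Y : Subgroup G) := by
        simpa [L] using hY
      have hDeq : D = (X : Subgroup G) ⊓ (Y : Subgroup G) := by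
        apply Subgroup.eq_of_le_of_card_ge (le_inf hDX hDY)
        rw [card_inf_eq h21 X Y P Q (Ne.symm hXY) hQ]
      have hEeq : (R₀ : Subgroup G) ⊓ (X : Subgroup G) = (X : Subgroup G) ⊓ (Y : Subgroup G) := by
        apply Subgroup.eq_of_le_of_card_ge
        · apply le_inf inf_le_right
          rw [← hinf]
          exact inf_le_right
        · rw [card_inf_eq h21 X Y R₀ X (Ne.symm hXY) (hne0 X hX)]
      apply hR₀
      rw [hDeq, ← hEeq]
      exact inf_le_left
    have hcard := Finset.card_biUnion hdisj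
    have hsub : L.biUnion t ⊆ Finset.univ.erase R₀ := by
      intro Z hZ
      rw [Finset.mem_biUnion] at hZ
      obtain ⟨X, hX, hZ⟩ := hZ
      simp only [t, Set.mem_toFinset] at hZ
      obtain ⟨a, rfl⟩ := hZ
      rw [Finset.mem_erase]
      exact ⟨smul_ne_of_ne (hne0 X hX) a.2, Finset.mem_univ _⟩
    have h1 := Finset.card_le_card hsub
    rw [Finset.card_erase_of_mem (Finset.mem_univ _), Finset.card_univ, ← Nat.card_eq_fintype_card,
      h21, hcard] at h1
    have h2 : ∀ X ∈ L, (t X).card = 5 := by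
      intro X hX
      simp only [t]
      rw [← Set.ncard_eq_toFinset_card', orbit_ncard_eq, relIndex_eq_five h21 R₀ X (hne0 X hX)]
    rw [Finset.sum_congr rfl h2, Finset.sum_const, smul_eq_mul] at h1
    omega
  omega

end Cfsg.Agent.Lib.SmallSimple.Syl21
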