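import Mathlib
import Cfsg.Agent.Lib.SmallSimple.Syl21A
import Cfsg.Agent.Lib.Transfer.Basic

/-!
Groups with exactly twenty-one Sylow 5-subgroups, second part: the faithful simple case is impossible.
Every involution has exactly one fixed point (signs and transfer), so a Sylow 2-subgroup has order at
most four, the normalizer of a Sylow 5-subgroup has order dividing 60, and the number of Sylow
7-subgroups gives the contradiction.
-/

set_option autoImplicit false

namespace Cfsg.Agent.Lib.SmallSimple.Syl21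

open Subgroup MulAction

variable {G : Type*} [Group G] [Finite G]

/-- An element of order prime to `|Aut H|` in the normalizer of a cyclic group centralizes it. -/
theorem mem_centralizer_of_pow (H : Subgroup G) [IsCyclic H] {g : G}
    (hg : g ∈ normalizer (H : Set G)) {k : ℕ} (hk : g ^ k = 1)
    (hc : Nat.Coprime k (Nat.card H).totient) : g ∈ centralizer (H : Set G) := by
  let g' : normalizer (H : Set G) := ⟨g, hg⟩
  let a := normalizerMonoidHom H g'
  have h1 : a ^ k = 1 := by
    have h0 : g' ^ k = 1 := Subtype.ext (by simpa [g'] using hk)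
    rw [← map_pow, h0, map_one]
  have h2 : a ^ (Nat.card H).totient = 1 := by
    rw [← IsCyclic.card_mulAut]
    exact pow_card_eq_one'
  have h3 : orderOf a ∣ Nat.gcd k (Nat.card H).totient :=
    Nat.dvd_gcd (orderOf_dvd_of_pow_eq_one h1) (orderOf_dvd_of_pow_eq_one h2)
  rw [hc, Nat.dvd_one, orderOf_eq_one_iff] at h3
  have h4 : g' ∈ (normalizerMonoidHom H).ker := MonoidHom.mem_ker.mpr h3
  rw [normalizerMonoidHom_ker] at h4
  exact mem_subgroupOf.mp h4

/-- The fixed points of an element of prime power order. -/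
theorem card_fixedBy_modEq {Ω : Type*} [MulAction G Ω] [Finite Ω] {r : ℕ} [hr : Fact r.Prime] (x : G)
    (k : ℕ) (hx : x ^ r ^ k = 1) : Nat.card Ω ≡ Nat.card (fixedBy Ω x) [MOD r] := by
  have hP : IsPGroup r (zpowers x) := by
    rintro ⟨y, m, rfl⟩
    refine ⟨k, Subtype.ext ?_⟩
    show ((x ^ m) ^ r ^ k : G) = 1
    rw [← zpow_natCast, ← zpow_mul, mul_comm, zpow_mul, zpow_natCast, hx, one_zpow]
  have h := hP.card_modEq_card_fixedPoints Ω
  have h2 : fixedPoints (zpowers x) Ω = fixedBy Ω x := by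
    ext Q
    rw [mem_fixedPoints, mem_fixedBy]
    constructor
    · intro h3
      exact h3 ⟨x, mem_zpowers x⟩
    · intro h3 g
      have h4 : zpowers x ≤ stabilizer G Q := by
        rw [zpowers_le]
        exact h3
      exact h4 g.2
  rw [h2] at h
  exact h

/-- Conjugate elements have equally many fixed points. -/
theorem card_fixedBy_conj {Ω : Type*} [MulAction G Ω] (g z : G) :
    Nat.card (fixedBy Ω (g⁻¹ * z * g)) = Nat.card (fixedBy Ω z) := by
  have h1 := MulAction.smul_fixedBy (α := Ω) z g⁻¹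
  rw [inv_inv] at h1
  rw [← h1]
  simp only [Nat.card_coe_set_eq]
  exact Set.ncard_smul_set _ _

/-- The standing assumptions. -/
structure Ctx (G : Type*) [Group G] [Finite G] : Prop where
  h21 : Nat.card (Sylow 5 G) = 21
  faith : ∀ g : G, (∀ Q : Sylow 5 G, g • Q = Q) → g = 1

namespace Ctx

variable (hc : Ctx G)
include hc

theorem h5 (P : Sylow 5 G) : Nat.card (P : Subgroup G) = 5 := card_eq_five hc.h21 hc.faith P

theorem cyc (P : Sylow 5 G) : IsCyclic (P : Subgroup G) := by
  haveI : Fact (Nat.Prime (Nat.card (P : Subgroup G))) := ⟨by rw [hc.h5 P]; norm_num⟩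
  exact isCyclic_of_prime_card rfl

/-- Fixed points of an element of the centralizer. -/
theorem fixed_card (P : Sylow 5 G) {x : G} (hx : x ∈ centralizer ((P : Subgroup G) : Set G)) :
    ∃ k, Nat.card (fixedBy (Sylow 5 G) x) = 1 + 5 * k := by
  let A : Set (Sylow 5 G) := {Q | Q ≠ P ∧ x • Q = Q}
  have hA : ∀ g ∈ (P : Subgroup G), ∀ Q ∈ A, g • Q ∈ A := by
    rintro g hg Q ⟨h1, h2⟩
    refine ⟨smul_ne_of_ne h1 hg, ?_⟩
    have h3 : x * g = g * x := ((mem_centralizer_iff.mp hx) g hg).symm
    rw [smul_smul, h3, ← smul_smul, h2]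
  have h1 := Lib.Perm.dvd_ncard_of_orbits (P : Subgroup G) A hA 5 (by
    rintro Q ⟨h1, -⟩
    rw [orbit_ncard_eq, relIndex_eq_five hc.h21 P Q h1])
  obtain ⟨k, hk⟩ := h1
  refine ⟨k, ?_⟩
  have hxP : x • P = P := by
    rw [Sylow.smul_eq_iff_mem_normalizer]
    exact Subgroup.centralizer_le_normalizer _ hx
  have h2 : fixedBy (Sylow 5 G) x = insert P A := by
    ext Q
    rw [mem_fixedBy, Set.mem_insert_iff]
    constructor
    · intro h3
      by_cases h4 : Q = P
      · exact Or.inl h4
      · exact Or.inr ⟨h4, h3⟩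
    · rintro (rfl | h3)
      · exact hxP
      · exact h3.2
  rw [Nat.card_coe_set_eq, h2, Set.ncard_insert_of_notMem (by
    rintro ⟨h3, -⟩
    exact h3 rfl) (Set.toFinite _), hk]
  omega

theorem fixed_lt {x : G} (hx : x ≠ 1) : Nat.card (fixedBy (Sylow 5 G) x) < 21 := by
  have h1 : Nat.card (fixedBy (Sylow 5 G) x) ≤ 21 := by
    rw [← hc.h21]
    exact Finite.card_subtype_le _
  refine lt_of_le_of_ne h1 ?_
  intro h2
  apply hx
  apply hc.faith
  intro Q
  have h3 : fixedBy (Sylow 5 G) x = Set.univ := by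
    rw [Set.eq_univ_iff_ncard, hc.h21, ← Nat.card_coe_set_eq, h2]
  have h4 : Q ∈ fixedBy (Sylow 5 G) x := by rw [h3]; trivial
  exact h4

/-- Elements of the centralizer whose order is a power of a prime other than 2, 3, 5 are trivial. -/
theorem eq_one_of_pow (P : Sylow 5 G) {x : G} (hx : x ∈ centralizer ((P : Subgroup G) : Set G))
    {r : ℕ} (hr : r.Prime) (k : ℕ) (h : x ^ r ^ k = 1) (h2 : r ≠ 2) (h3 : r ≠ 3) (h5 : r ≠ 5) :
    x = 1 := by
  by_contra hne
  haveI : Fact r.Prime := ⟨hr⟩
  obtain ⟨m, hm⟩ := hc.fixed_card P hx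
  have hlt := hc.fixed_lt hne
  have hmod := card_fixedBy_modEq (Ω := Sylow 5 G) x k h
  rw [hc.h21, hm] at hmod
  have hle : 1 + 5 * m ≤ 21 := by omega
  have hdvd : r ∣ 21 - (1 + 5 * m) := (Nat.modEq_iff_dvd' hle).mp hmod.symm
  have hm3 : m ≤ 3 := by omega
  have hcases : r ∣ 20 ∨ r ∣ 15 ∨ r ∣ 10 ∨ r ∣ 5 := by
    interval_cases m
    · exact Or.inl hdvd
    · exact Or.inr (Or.inl hdvd)
    · exact Or.inr (Or.inr (Or.inl hdvd))
    · exact Or.inr (Or.inr (Or.inr hdvd))
  have hr2 : r ≤ 20 := by
    rcases hcases with h4 | h4 | h4 | h4 <;> have := Nat.le_of_dvd (by norm_num) h4 <;> omega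
  interval_cases r <;> first
    | omega
    | (exfalso; revert hr; norm_num; done)

/-- No element of 7-power order normalizes `P`. -/
theorem eq_one_of_seven (P : Sylow 5 G) {x : G} (hx : x ∈ normalizer ((P : Subgroup G) : Set G))
    (k : ℕ) (h : x ^ 7 ^ k = 1) : x = 1 := by
  haveI := hc.cyc P
  refine hc.eq_one_of_pow P (mem_centralizer_of_pow (P : Subgroup G) hx h ?_) (by norm_num) k h
    (by norm_num) (by norm_num) (by norm_num)
  rw [hc.h5 P]
  have : Nat.totient 5 = 4 := by decide
  rw [this]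
  exact Nat.Coprime.pow_left k (by norm_num)

/-- The index of the normalizer. -/
theorem card_eq (P : Sylow 5 G) :
    21 * Nat.card (normalizer ((P : Subgroup G) : Set G)) = Nat.card G := by
  rw [← hc.h21, P.card_eq_index_normalizer]
  exact Subgroup.index_mul_card _

/-- Seven does not divide the order of the normalizer. -/
theorem not_seven_dvd (P : Sylow 5 G) : ¬ 7 ∣ Nat.card (normalizer ((P : Subgroup G) : Set G)) := by
  intro h
  obtain ⟨x, hx⟩ := exists_prime_orderOf_dvd_card' (G := normalizer ((P : Subgroup G) : Set G)) 7 h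
  have h1 : (x : G) = 1 := by
    apply hc.eq_one_of_seven P x.2 1
    rw [pow_one, ← Subgroup.orderOf_coe] at *
    rw [← hx]
    exact pow_orderOf_eq_one _
  have h2 : orderOf (x : G) = 7 := by rw [Subgroup.orderOf_coe]; exact hx
  rw [h1, orderOf_one] at h2
  omega

/-- Sylow 7-subgroups have order seven. -/
theorem card_seven (R : Sylow 7 G) : Nat.card (R : Subgroup G) = 7 := by
  obtain ⟨P⟩ := (inferInstance : Nonempty (Sylow 5 G))
  have h1 := hc.card_eq P
  have h2 := hc.not_seven_dvd P
  apply card_sylow_of_exact (3 * Nat.card (normalizer ((P : Subgroup G) : Set G)))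
  · intro h3
    rcases (Nat.Prime.dvd_mul (by norm_num)).mp h3 with h4 | h4
    · omega
    · exact h2 h4
  · rw [← h1]
    ring

/-- Seven does not divide the order of a normalizer, in divisibility form for elements of `R`. -/
theorem sylow_seven_not_le (R : Sylow 7 G) (Q : Sylow 5 G) :
    ¬ (R : Subgroup G) ≤ normalizer ((Q : Subgroup G) : Set G) := by
  intro h
  have h1 : Nat.card (R : Subgroup G) ∣ Nat.card (normalizer ((Q : Subgroup G) : Set G)) :=
    Subgroup.card_dvd_of_le h
  rw [hc.card_seven R] at h1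
  exact hc.not_seven_dvd Q h1

end Ctx

end Cfsg.Agent.Lib.SmallSimple.Syl21
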