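import Mathlib
import Cfsg.Agent.Lib.SmallSimple.Syl21B

/-!
Groups with exactly twenty-one Sylow 5-subgroups, third part: in the simple faithful case every
involution fixes exactly one Sylow 5-subgroup.
-/

set_option autoImplicit false

namespace Cfsg.Agent.Lib.SmallSimple.Syl21

open Subgroup MulAction

variable {G : Type*} [Group G] [Finite G]

theorem units_five_unique : ∀ n : ℕ, n = 5 → ∀ a b : (ZMod n)ˣ, a ≠ 1 → b ≠ 1 → a ^ 2 = 1 → b ^ 2 = 1 → a = b := by
  rintro _ rfl
  decide

/-- Homomorphisms from a non-abelian simple group to commutative groups are trivial. -/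
theorem hom_trivial [IsSimpleGroup G] (hnc : ¬ IsMulCommutative G) {A : Type*} [CommGroup A] (f : G →* A)
    (g : G) : f g = 1 := by
  rcases IsSimpleGroup.eq_bot_or_eq_top_of_normal f.ker f.normal_ker with h | h
  · exfalso
    apply hnc
    have hinj : Function.Injective f := (MonoidHom.ker_eq_bot_iff f).mp h
    refine ⟨⟨fun a b => hinj ?_⟩⟩
    rw [map_mul, map_mul, mul_comm]
  · have : g ∈ f.ker := by rw [h]; trivial
    exact this

namespace Ctx

variable (hc : Ctx G)
include hc

theorem not_comm : ¬ IsMulCommutative G := by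
  intro hcomm
  obtain ⟨P⟩ := (inferInstance : Nonempty (Sylow 5 G))
  have hN : (P : Subgroup G).Normal := ⟨fun x hx g => by
    have : g * x = x * g := hcomm.is_comm.comm g x
    rw [this, mul_inv_cancel_right]
    exact hx⟩
  have := Sylow.unique_of_normal P hN
  have h1 : Nat.card (Sylow 5 G) = 1 := Nat.card_unique
  have h2 := hc.h21
  omega

variable [IsSimpleGroup G]

theorem fix_one_of_centralizer (P : Sylow 5 G) {v : G}
    (hv : v ∈ centralizer ((P : Subgroup G) : Set G)) (h2 : v ^ 2 = 1) (hne : v ≠ 1) :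
    Nat.card (fixedBy (Sylow 5 G) v) = 1 := by
  classical
  have := Fintype.ofFinite (Sylow 5 G)
  obtain ⟨m, hm⟩ := hc.fixed_card P hv
  have hlt := hc.fixed_lt hne
  have hmod := card_fixedBy_modEq (Ω := Sylow 5 G) (r := 2) v 1 (by simpa using h2)
  have heven := Lib.SmallSimple.even_moved_of_involution hc.not_comm (MulAction.toPermHom G (Sylow 5 G)) v h2
  have hfix : Nat.card (Function.fixedPoints ((MulAction.toPermHom G (Sylow 5 G)) v)) =
      Nat.card (fixedBy (Sylow 5 G) v) := rfl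
  rw [hfix, hc.h21, hm] at heven
  rw [hc.h21, hm] at hmod
  rw [hm] at hlt ⊢
  have hm3 : m ≤ 3 := by omega
  interval_cases m
  · rfl
  · exact absurd hmod (by decide)
  · exact absurd heven (by decide)
  · exact absurd hmod (by decide)

/-- An involution inverting `P` has a single fixed point: otherwise the transfer is non-trivial. -/
theorem fix_one_of_normalizer (P : Sylow 5 G) {z : G}
    (hz : z ∈ normalizer ((P : Subgroup G) : Set G)) (h2 : z ^ 2 = 1)
    (hnot : z ∉ centralizer ((P : Subgroup G) : Set G)) :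
    Nat.card (fixedBy (Sylow 5 G) z) = 1 := by
  classical
  by_contra hF
  haveI := hc.cyc P
  set N : Subgroup G := normalizer ((P : Subgroup G) : Set G) with hN
  have hN21 : N.index = 21 := by
    rw [← hc.h21, P.card_eq_index_normalizer]
    rfl
  let z' : N := ⟨z, hz⟩
  have h2' : z' ^ 2 = 1 := Subtype.ext (by simpa [z'] using h2)
  have hpz : IsPGroup 2 (zpowers z') := by
    rintro ⟨y, m, rfl⟩
    refine ⟨1, Subtype.ext ?_⟩
    show ((z' ^ m) ^ 2 ^ 1 : N) = 1
    rw [pow_one, ← zpow_natCast, ← zpow_mul, mul_comm, zpow_mul, zpow_natCast, h2', one_zpow]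
  obtain ⟨T, hT⟩ := hpz.exists_le_sylow
  let S : Subgroup G := (T : Subgroup N).map N.subtype
  have hSN : S ≤ N := Subgroup.map_subtype_le _
  have hzS : z ∈ S := ⟨z', hT (mem_zpowers z'), rfl⟩
  have hidx : S.index = (T : Subgroup N).index * N.index := Subgroup.index_map_subtype _
  have hodd : Odd S.index := by
    rw [hidx, hN21, Nat.odd_mul]
    refine ⟨?_, by decide⟩
    rw [← Nat.not_even_iff_odd, even_iff_two_dvd]
    exact T.not_dvd_index
  haveI : S.FiniteIndex := ⟨by
    intro h0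
    rw [h0] at hodd
    exact absurd hodd (by decide)⟩
  -- the multiplier of an element of the normalizer
  let θ : N →* (ZMod (Nat.card (P : Subgroup G)))ˣ :=
    (IsCyclic.mulAutMulEquiv (P : Subgroup G)).toMonoidHom.comp (normalizerMonoidHom (P : Subgroup G))
  have hθ : ∀ y : N, θ y = 1 ↔ (y : G) ∈ centralizer ((P : Subgroup G) : Set G) := by
    intro y
    have h3 : θ y = 1 ↔ normalizerMonoidHom (P : Subgroup G) y = 1 := by
      simp [θ]
    rw [h3, ← MonoidHom.mem_ker, normalizerMonoidHom_ker, mem_subgroupOf]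
  let ψ : S →* (ZMod (Nat.card (P : Subgroup G)))ˣ := θ.comp (Subgroup.inclusion hSN)
  have hψ : ∀ s : S, ψ s = 1 ↔ (s : G) ∈ centralizer ((P : Subgroup G) : Set G) := by
    intro s
    exact hθ _
  have hψ2 : ∀ s : S, (s : G) ^ 2 = 1 → ψ s ^ 2 = 1 := by
    intro s hs
    have h3 : s ^ 2 = 1 := Subtype.ext (by simpa using hs)
    rw [← map_pow, h3, map_one]
  let x : S := ⟨z, hzS⟩
  have hx2 : ψ x ^ 2 = 1 := hψ2 x h2
  have hx1 : ψ x ≠ 1 := fun h => hnot ((hψ x).mp h)
  have hzne : z ≠ 1 := by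
    rintro rfl
    exact hnot (Subgroup.one_mem _)
  have hpow : ∀ k : ℕ, Odd k → ψ x ^ k = ψ x := by
    rintro k ⟨j, rfl⟩
    rw [pow_succ, pow_mul, hx2, one_pow, one_mul]
  have hstable := Cfsg.Agent.Lib.Transfer.transfer_eq_pow_of_stable' ψ x (by
    intro k g hg
    rcases Nat.even_or_odd k with hk | hk
    · obtain ⟨j, rfl⟩ := hk
      have h3 : (⟨g⁻¹ * (x : G) ^ (j + j) * g, hg⟩ : S) = 1 := by
        apply Subtype.ext
        show g⁻¹ * z ^ (j + j) * g = 1
        rw [← two_mul, pow_mul, h2, one_pow, mul_one, inv_mul_cancel]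
      rw [h3, map_one, ← two_mul, pow_mul, hx2, one_pow]
    · rw [hpow k hk]
      obtain ⟨j, hj⟩ := hk
      have h3 : (x : G) ^ k = z := by
        show z ^ k = z
        rw [hj, pow_succ, pow_mul, h2, one_pow, one_mul]
      have h4 : g⁻¹ * z * g ∈ S := by
        rw [← h3]
        exact hg
      have h5 : (⟨g⁻¹ * (x : G) ^ k * g, hg⟩ : S) = ⟨g⁻¹ * z * g, h4⟩ :=
        Subtype.ext (by simp only [h3])
      rw [h5]
      have hs2 : (g⁻¹ * z * g) ^ 2 = 1 := by
        rw [sq, show g⁻¹ * z * g * (g⁻¹ * z * g) = g⁻¹ * (z * z) * g by group, ← sq, h2]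
        group
      refine units_five_unique _ (hc.h5 P) _ _ ?_ hx1 (hψ2 ⟨_, h4⟩ hs2) hx2
      intro h6
      have h7 := (hψ ⟨_, h4⟩).mp h6
      have hne : g⁻¹ * z * g ≠ 1 := by
        intro h8
        apply hzne
        have : z = g * (g⁻¹ * z * g) * g⁻¹ := by group
        rw [this, h8]
        group
      have h8 := hc.fix_one_of_centralizer P h7 hs2 hne
      rw [card_fixedBy_conj] at h8
      exact hF h8)
  rw [hpow _ hodd] at hstable
  exact hx1 (hstable.symm.trans (hom_trivial hc.not_comm _ _))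

/-- Every involution has exactly one fixed point. -/
theorem fix_one {t : G} (h2 : t ^ 2 = 1) (hne : t ≠ 1) : Nat.card (fixedBy (Sylow 5 G) t) = 1 := by
  have hmod := card_fixedBy_modEq (Ω := Sylow 5 G) (r := 2) t 1 (by simpa using h2)
  rw [hc.h21] at hmod
  have hpos : Nat.card (fixedBy (Sylow 5 G) t) ≠ 0 := by
    intro h0
    rw [h0] at hmod
    exact absurd hmod (by decide)
  have hnonempty : Nonempty (fixedBy (Sylow 5 G) t) := by
    by_contra hcon
    rw [not_nonempty_iff] at hcon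
    exact hpos Nat.card_of_isEmpty
  obtain ⟨⟨Q, hQ⟩⟩ := hnonempty
  have hN : t ∈ normalizer ((Q : Subgroup G) : Set G) := Sylow.smul_eq_iff_mem_normalizer.mp hQ
  by_cases hC : t ∈ centralizer ((Q : Subgroup G) : Set G)
  · exact hc.fix_one_of_centralizer Q hC h2 hne
  · exact hc.fix_one_of_normalizer Q hN h2 hC

/-- Two fixed points of an involution coincide. -/
theorem fix_unique {t : G} (h2 : t ^ 2 = 1) (hne : t ≠ 1) {Q Q' : Sylow 5 G} (h : t • Q = Q)
    (h' : t • Q' = Q') : Q = Q' := by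
  have h1 := hc.fix_one h2 hne
  have h3 := (Nat.card_eq_one_iff_unique.mp h1).1
  have h4 : (⟨Q, h⟩ : fixedBy (Sylow 5 G) t) = ⟨Q', h'⟩ := Subsingleton.elim _ _
  exact congrArg Subtype.val h4

/-- A 2-subgroup has order dividing four. -/
theorem two_group_dvd (S : Subgroup G) (hS : IsPGroup 2 S) : Nat.card S ∣ 4 := by
  have hmod := hS.card_modEq_card_fixedPoints (Sylow 5 G)
  rw [hc.h21] at hmod
  have hpos : Nat.card (fixedPoints S (Sylow 5 G)) ≠ 0 := by
    intro h0
    rw [h0] at hmod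
    exact absurd hmod (by decide)
  have hnonempty : Nonempty (fixedPoints S (Sylow 5 G)) := by
    by_contra hcon
    rw [not_nonempty_iff] at hcon
    exact hpos Nat.card_of_isEmpty
  obtain ⟨⟨Q, hQ⟩⟩ := hnonempty
  have hQ' : ∀ s ∈ S, s • Q = Q := fun s hs => hQ ⟨s, hs⟩
  -- freeness
  have hfree : ∀ Q' : Sylow 5 G, Q' ≠ Q → ∀ s ∈ S, s • Q' = Q' → s = 1 := by
    intro Q' hne s hs hs'
    by_contra hs1
    obtain ⟨n, hn⟩ := hS ⟨s, hs⟩
    have hn' : s ^ 2 ^ n = 1 := by
      have := congrArg Subtype.val hn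
      simpa using this
    have hord : orderOf s ∣ 2 ^ n := orderOf_dvd_of_pow_eq_one hn'
    obtain ⟨j, -, hj⟩ := (Nat.dvd_prime_pow Nat.prime_two).mp hord
    have hj0 : j ≠ 0 := by
      rintro rfl
      rw [pow_zero, orderOf_eq_one_iff] at hj
      exact hs1 hj
    obtain ⟨i, rfl⟩ := Nat.exists_eq_succ_of_ne_zero hj0
    let t := s ^ 2 ^ i
    have ht2 : t ^ 2 = 1 := by
      show (s ^ 2 ^ i) ^ 2 = 1
      rw [← pow_mul, ← pow_succ, ← hj]
      exact pow_orderOf_eq_one s
    have htne : t ≠ 1 := by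
      intro h1
      have h3 := orderOf_dvd_of_pow_eq_one h1
      rw [hj] at h3
      have h4 := Nat.pow_dvd_pow_iff_le_right (by norm_num : 1 < 2) |>.mp h3
      omega
    have h5 : ∀ (X : Sylow 5 G), s • X = X → t • X = X := by
      intro X hX
      have h6 : zpowers s ≤ stabilizer G X := by
        rw [zpowers_le]
        exact hX
      exact h6 (Subgroup.pow_mem _ (mem_zpowers s) _)
    exact hne (hc.fix_unique ht2 htne (h5 _ hs') (h5 _ (hQ' s hs)))
  have hdvd : Nat.card S ∣ ({Q}ᶜ : Set (Sylow 5 G)).ncard := by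
    apply Lib.Perm.dvd_ncard_of_orbits S ({Q}ᶜ) _ (Nat.card S)
    · intro Q' hQ''
      have h1 := MulAction.index_stabilizer S Q'
      have h2 : stabilizer S Q' = ⊥ := by
        rw [eq_bot_iff]
        intro s hs
        rw [Subgroup.mem_bot]
        exact Subtype.ext (hfree Q' hQ'' s s.2 hs)
      rw [h2, Subgroup.index_bot] at h1
      rw [h1]
    · intro g hg X hX h3
      apply hX
      have h4 := hQ' g hg
      rw [Set.mem_singleton_iff] at h3 ⊢
      rw [← h4] at h3
      exact smul_left_cancel g h3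
  rw [ncard_compl_singleton hc.h21] at hdvd
  obtain ⟨n, hn⟩ := IsPGroup.iff_card.mp hS
  rw [hn] at hdvd ⊢
  have hn2 : n ≤ 2 := by
    by_contra hn3
    have h3 : 2 ^ 3 ∣ 2 ^ n := pow_dvd_pow 2 (by omega)
    have h4 := h3.trans hdvd
    omega
  exact pow_dvd_pow 2 hn2 |>.trans (by norm_num)

end Ctx

end Cfsg.Agent.Lib.SmallSimple.Syl21
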