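import Mathlib
import Cfsg.Agent.Lib.SmallSimple.Syl21C

/-!
Groups with exactly twenty-one Sylow 5-subgroups, fourth part: the order of the normalizer divides
sixty and the simple faithful case is impossible.
-/

set_option autoImplicit false

namespace Cfsg.Agent.Lib.SmallSimple.Syl21

open Subgroup MulAction

variable {G : Type*} [Group G] [Finite G]

namespace Ctx

variable (hc : Ctx G)
include hc

/-- A 3-subgroup of the normalizer has order dividing three. -/
theorem three_group_dvd (P : Sylow 5 G) (T : Subgroup G) (hT : IsPGroup 3 T)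
    (hle : T ≤ normalizer ((P : Subgroup G) : Set G)) : Nat.card T ∣ 3 := by
  classical
  haveI := hc.cyc P
  have := Fintype.ofFinite (Sylow 5 G)
  have := Fintype.ofFinite T
  have hF : ∀ t : T, t ≠ 1 → Nat.card (fixedBy (Sylow 5 G) t) = 6 := by
    intro t ht
    obtain ⟨n, hn⟩ := hT t
    have hn' : (t : G) ^ 3 ^ n = 1 := by
      have := congrArg Subtype.val hn
      simpa using this
    have hC : (t : G) ∈ centralizer ((P : Subgroup G) : Set G) := by
      refine mem_centralizer_of_pow (P : Subgroup G) (hle t.2) hn' ?_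
      rw [hc.h5 P]
      have : Nat.totient 5 = 4 := by decide
      rw [this]
      exact Nat.Coprime.pow_left n (by norm_num)
    obtain ⟨m, hm⟩ := hc.fixed_card P hC
    have hne : (t : G) ≠ 1 := fun h => ht (Subtype.ext h)
    have hlt := hc.fixed_lt hne
    haveI : Fact (Nat.Prime 3) := ⟨by norm_num⟩
    have hmod := card_fixedBy_modEq (Ω := Sylow 5 G) (t : G) n hn'
    rw [hc.h21, hm] at hmod
    have hfix : fixedBy (Sylow 5 G) t = fixedBy (Sylow 5 G) (t : G) := rfl
    rw [hfix, hm]
    rw [hm] at hlt
    have hm3 : m ≤ 3 := by omega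
    interval_cases m
    · exact absurd hmod (by decide)
    · rfl
    · exact absurd hmod (by decide)
    · exact absurd hmod (by decide)
  have hsum := MulAction.sum_card_fixedBy_eq_card_orbits_mul_card_group T (Sylow 5 G)
  rw [← Finset.add_sum_erase Finset.univ _ (Finset.mem_univ (1 : T))] at hsum
  have h1 : Fintype.card (fixedBy (Sylow 5 G) (1 : T)) = 21 := by
    rw [← hc.h21, ← Nat.card_eq_fintype_card]
    have : fixedBy (Sylow 5 G) (1 : T) = Set.univ := by
      ext Q
      simp
    rw [this]
    simp
  have h2 : ∀ t ∈ Finset.univ.erase (1 : T), Fintype.card (fixedBy (Sylow 5 G) t) = 6 := by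
    intro t ht
    rw [← Nat.card_eq_fintype_card]
    exact hF t (Finset.ne_of_mem_erase ht)
  rw [Finset.sum_congr rfl h2, Finset.sum_const, h1, smul_eq_mul, Finset.card_erase_of_mem (Finset.mem_univ _),
    Finset.card_univ] at hsum
  have hpos : 0 < Fintype.card T := Fintype.card_pos
  have h3 : Fintype.card T ∣ 15 := by
    have h4 : Fintype.card T ∣ 21 + (Fintype.card T - 1) * 6 := by
      rw [hsum]
      exact dvd_mul_left _ _
    have h5 : 21 + (Fintype.card T - 1) * 6 = 15 + Fintype.card T * 6 := by
      obtain ⟨c, hc'⟩ : ∃ c, Fintype.card T = c + 1 := ⟨Fintype.card T - 1, by omega⟩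
      rw [hc']
      simp only [Nat.add_sub_cancel]
      ring
    rw [h5] at h4
    exact (Nat.dvd_add_left (dvd_mul_right _ _)).mp h4
  rw [← Nat.card_eq_fintype_card] at h3
  obtain ⟨n, hn⟩ := IsPGroup.iff_card.mp hT
  rw [hn] at h3 ⊢
  have hn1 : n ≤ 1 := by
    by_contra hn2
    have h6 : 3 ^ 2 ∣ 3 ^ n := pow_dvd_pow 3 (by omega)
    have h7 := h6.trans h3
    omega
  simpa using pow_dvd_pow 3 hn1

theorem five_group_dvd (T : Subgroup G) (hT : IsPGroup 5 T) : Nat.card T ∣ 5 := by
  obtain ⟨Q, hQ⟩ := hT.exists_le_sylow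
  rw [← hc.h5 Q]
  exact Subgroup.card_dvd_of_le hQ

variable [IsSimpleGroup G]

/-- A `p`-subgroup of the normalizer has order dividing sixty. -/
theorem pgroup_dvd (P : Sylow 5 G) {r : ℕ} (hr : r.Prime) (T : Subgroup G) (hT : IsPGroup r T)
    (hle : T ≤ normalizer ((P : Subgroup G) : Set G)) : Nat.card T ∣ 60 := by
  by_cases h2 : r = 2
  · subst h2
    exact (hc.two_group_dvd T hT).trans (by norm_num)
  by_cases h3 : r = 3
  · subst h3
    exact (hc.three_group_dvd P T hT hle).trans (by norm_num)
  by_cases h5 : r = 5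
  · subst h5
    exact (hc.five_group_dvd T hT).trans (by norm_num)
  have hb : T = ⊥ := by
    rw [eq_bot_iff]
    intro t ht
    rw [Subgroup.mem_bot]
    obtain ⟨n, hn⟩ := hT ⟨t, ht⟩
    have hn' : t ^ r ^ n = 1 := by
      have := congrArg Subtype.val hn
      simpa using this
    haveI := hc.cyc P
    refine hc.eq_one_of_pow P ?_ hr n hn' h2 h3 h5
    refine mem_centralizer_of_pow (P : Subgroup G) (hle ht) hn' ?_
    rw [hc.h5 P]
    have : Nat.totient 5 = 4 := by decide
    rw [this]
    refine Nat.Coprime.pow_left n ?_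
    have h4 : Nat.Coprime r (2 ^ 2) := Nat.Coprime.pow_right 2 ((Nat.coprime_primes hr Nat.prime_two).mpr h2)
    simpa using h4
  rw [hb]
  simp

/-- The order of the normalizer divides sixty. -/
theorem normalizer_dvd (P : Sylow 5 G) : Nat.card (normalizer ((P : Subgroup G) : Set G)) ∣ 60 := by
  rw [Nat.dvd_iff_prime_pow_dvd_dvd]
  intro r k hr hdvd
  haveI : Fact r.Prime := ⟨hr⟩
  obtain ⟨K, hK⟩ := Sylow.exists_subgroup_card_pow_prime (G := normalizer ((P : Subgroup G) : Set G)) r hdvd
  have hp : IsPGroup r K := IsPGroup.of_card hK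
  have h1 := hc.pgroup_dvd P hr (K.map (normalizer ((P : Subgroup G) : Set G)).subtype)
    (hp.map _) (Subgroup.map_subtype_le _)
  rw [Subgroup.card_map_of_injective (Subtype.val_injective), hK] at h1
  exact h1

/-- The contradiction in the simple case. -/
theorem false_of_simple : False := by
  obtain ⟨P⟩ := (inferInstance : Nonempty (Sylow 5 G))
  have hnc := hc.not_comm
  haveI := hc.cyc P
  have hG := hc.card_eq P
  have hN := hc.normalizer_dvd P
  have h5N : 5 ∣ Nat.card (normalizer ((P : Subgroup G) : Set G)) := by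
    have h1 : Nat.card (P : Subgroup G) ∣ Nat.card (normalizer ((P : Subgroup G) : Set G)) :=
      Subgroup.card_dvd_of_le Subgroup.le_normalizer
    rwa [hc.h5 P] at h1
  set c := Nat.card (normalizer ((P : Subgroup G) : Set G)) with hc'
  have h5G : 5 ∣ Nat.card G := by rw [← hG]; exact h5N.trans (dvd_mul_left _ _)
  have hcle : c ≤ 60 := Nat.le_of_dvd (by norm_num) hN
  by_cases hodd : c = 5 ∨ c = 15
  · -- odd order: the multiplier is trivial
    have h1 := Lib.SmallSimple.relIndex_centralizer_normalizer_dvd (P : Subgroup G)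
    rw [hc.h5 P, show Nat.totient 5 = 4 by decide] at h1
    have h2 : (centralizer ((P : Subgroup G) : Set G)).relIndex (normalizer ((P : Subgroup G) : Set G)) ∣ c :=
      Subgroup.relIndex_dvd_card _ _
    have h3 : (centralizer ((P : Subgroup G) : Set G)).relIndex (normalizer ((P : Subgroup G) : Set G)) = 1 := by
      have h4 : (centralizer ((P : Subgroup G) : Set G)).relIndex (normalizer ((P : Subgroup G) : Set G)) ∣ Nat.gcd 4 c :=
        Nat.dvd_gcd h1 h2
      rcases hodd with h5 | h5 <;> rw [h5] at h4 <;> simpa using h4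
    exact Lib.SmallSimple.false_of_normalizer_le_centralizer hnc h5G P (relIndex_eq_one.mp h3)
  by_cases htwo : c = 10 ∨ c = 30
  · -- Sylow 2-subgroups of order two
    obtain ⟨S⟩ := (inferInstance : Nonempty (Sylow 2 G))
    have hS : Nat.card (S : Subgroup G) = 2 := by
      apply Lib.SmallSimple.card_sylow_of_exact (3 * 21 * (c / 2 / 3 * 0 + 1) * (if c = 10 then 5 else 15) / 3)
      · rcases htwo with h5 | h5 <;> rw [h5] <;> norm_num
      · rcases htwo with h5 | h5 <;> rw [← hG, h5] <;> norm_num
    haveI : Fact (Nat.Prime (Nat.card (S : Subgroup G))) := ⟨by rw [hS]; norm_num⟩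
    haveI : IsCyclic (S : Subgroup G) := isCyclic_of_prime_card rfl
    refine Lib.SmallSimple.false_of_coprime hnc ?_ S ?_
    · rw [← hG]
      rcases htwo with h5 | h5 <;> rw [h5] <;> norm_num
    · rw [hS]
      simp
  -- four divides the order
  have hc20 : c = 20 ∨ c = 60 := by
    have : c ∣ 60 := hN
    have hc0 : c ≠ 0 := Nat.card_pos.ne'
    interval_cases c <;> omega
  obtain ⟨R⟩ := (inferInstance : Nonempty (Sylow 7 G))
  have hR := hc.card_seven R
  haveI : Fact (Nat.Prime (Nat.card (R : Subgroup G))) := ⟨by rw [hR]; norm_num⟩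
  haveI : IsCyclic (R : Subgroup G) := isCyclic_of_prime_card rfl
  set m := Nat.card (normalizer ((R : Subgroup G) : Set G)) with hm
  have hnR : Nat.card (Sylow 7 G) * m = Nat.card G := by
    rw [R.card_eq_index_normalizer]
    exact Subgroup.index_mul_card _
  have hmod : Nat.card (Sylow 7 G) % 7 = 1 := card_sylow_modEq_one 7 G
  have hidx : Nat.card (Sylow 7 G) ∣ 180 := by
    have h1 := R.card_dvd_index
    have h2 := Subgroup.card_mul_index (R : Subgroup G)
    rw [hR] at h2
    have h3 : (R : Subgroup G).index ∣ 180 := by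
      rcases hc20 with h5 | h5
      · rw [h5] at hG
        have : (R : Subgroup G).index = 60 := by omega
        rw [this]
        norm_num
      · rw [h5] at hG
        have : (R : Subgroup G).index = 180 := by omega
        rw [this]
    exact h1.trans h3
  -- no element of order five normalizes `R`
  have hm5 : ¬ 5 ∣ m := by
    intro h
    obtain ⟨x, hx⟩ := exists_prime_orderOf_dvd_card' (G := normalizer ((R : Subgroup G) : Set G)) 5 h
    have hx' : orderOf (x : G) = 5 := by rw [Subgroup.orderOf_coe]; exact hx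
    have hxC : (x : G) ∈ centralizer ((R : Subgroup G) : Set G) := by
      have hx5 : (x : G) ^ 5 = 1 := by
        have h1 := pow_orderOf_eq_one (x : G)
        rwa [hx'] at h1
      refine mem_centralizer_of_pow (R : Subgroup G) x.2 hx5 ?_
      rw [hR, show Nat.totient 7 = 6 by decide]
      norm_num
    have hpz : IsPGroup 5 (zpowers (x : G)) := IsPGroup.of_card (by
      rw [Nat.card_zpowers, hx', pow_one])
    obtain ⟨Q, hQ⟩ := hpz.exists_le_sylow
    have hQeq : zpowers (x : G) = (Q : Subgroup G) := by
      apply Subgroup.eq_of_le_of_card_ge hQ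
      rw [hc.h5 Q, Nat.card_zpowers, hx']
    apply hc.sylow_seven_not_le R Q
    intro r hr
    apply Subgroup.centralizer_le_normalizer
    rw [mem_centralizer_iff]
    intro y hy
    rw [SetLike.mem_coe, ← hQeq] at hy
    obtain ⟨i, rfl⟩ := hy
    have h1 : (x : G) * r = r * x := ((mem_centralizer_iff.mp hxC) r hr).symm
    exact ((Commute.zpow_left h1 i)).eq
  -- no involution centralizes `R`
  have hC2 : ¬ 2 ∣ Nat.card (centralizer ((R : Subgroup G) : Set G)) := by
    intro h
    obtain ⟨v, hv⟩ := exists_prime_orderOf_dvd_card' (G := centralizer ((R : Subgroup G) : Set G)) 2 h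
    have hv' : orderOf (v : G) = 2 := by rw [Subgroup.orderOf_coe]; exact hv
    have hv2 : (v : G) ^ 2 = 1 := by rw [← hv']; exact pow_orderOf_eq_one _
    have hvne : (v : G) ≠ 1 := by
      intro h1
      rw [h1, orderOf_one] at hv'
      omega
    have hmod2 := card_fixedBy_modEq (Ω := Sylow 5 G) (r := 2) (v : G) 1 (by simpa using hv2)
    have hF := hc.fix_one hv2 hvne
    obtain ⟨⟨Q, hQ⟩⟩ : Nonempty (fixedBy (Sylow 5 G) (v : G)) := by
      by_contra hcon
      rw [not_nonempty_iff] at hcon
      rw [Nat.card_of_isEmpty] at hF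
      omega
    apply hc.sylow_seven_not_le R Q
    intro r hr
    refine Sylow.smul_eq_iff_mem_normalizer.mp ?_
    have h1 : (v : G) * r = r * v := ((mem_centralizer_iff.mp v.2) r hr).symm
    have h2 : (v : G) • (r • Q) = r • Q := by
      rw [smul_smul, h1, ← smul_smul]
      rw [show (v : G) • Q = Q from hQ]
    exact hc.fix_unique hv2 hvne h2 hQ
  have hm4 : ¬ 4 ∣ m := by
    intro h
    have h1 := Lib.SmallSimple.relIndex_centralizer_normalizer_dvd (R : Subgroup G)
    rw [hR, show Nat.totient 7 = 6 by decide] at h1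
    have h2 := Subgroup.card_mul_index
      ((centralizer ((R : Subgroup G) : Set G)).subgroupOf (normalizer ((R : Subgroup G) : Set G)))
    rw [Nat.card_congr (Subgroup.subgroupOfEquivOfLe (Subgroup.centralizer_le_normalizer _)).toEquiv] at h2
    have h3 : ((centralizer ((R : Subgroup G) : Set G)).subgroupOf (normalizer ((R : Subgroup G) : Set G))).index ∣ 6 := h1
    generalize ((centralizer ((R : Subgroup G) : Set G)).subgroupOf (normalizer ((R : Subgroup G) : Set G))).index = a at h2 h3
    generalize Nat.card (centralizer ((R : Subgroup G) : Set G)) = b at h2 hC2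
    have hapos : 0 < a := Nat.pos_of_dvd_of_pos h3 (by norm_num)
    have hale : a ≤ 6 := Nat.le_of_dvd (by norm_num) h3
    have h6 : 4 ∣ b * a := by
      rw [h2]
      exact h
    clear h2
    interval_cases a <;> omega
  have hle : Nat.card (Sylow 7 G) ≤ 180 := Nat.le_of_dvd (by norm_num) hidx
  rcases hc20 with h5 | h5 <;> rw [h5] at hG <;> rw [← hG] at hnR <;>
    generalize Nat.card (Sylow 7 G) = n at * <;> interval_cases n <;> omega

end Ctx

end Cfsg.Agent.Lib.SmallSimple.Syl21
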